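import Mathlib

/-!
Powers in finite cyclic groups and in finite fields.
-/

set_option autoImplicit false

namespace Cfsg.Agent.Lib.GL.Cyc

theorem exists_pow_eq_iff {G : Type*} [CommGroup G] [IsCyclic G] [Finite G] (n : ℕ) (a : G) :
    (∃ c : G, c ^ n = a) ↔ a ^ (Nat.card G / (Nat.card G).gcd n) = 1 := by
  set d := Nat.card G / (Nat.card G).gcd n with hd
  have h1 : (powMonoidHom n : G →* G).range ≤ (powMonoidHom d : G →* G).ker := by
    rintro _ ⟨c, rfl⟩
    rw [MonoidHom.mem_ker, powMonoidHom_apply, powMonoidHom_apply, ← pow_mul]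
    obtain ⟨n', hn'⟩ := Nat.gcd_dvd_right (Nat.card G) n
    have : n * d = Nat.card G * n' := by
      rw [hd]
      conv_lhs => rw [hn']
      rw [← hn', mul_comm, show Nat.card G / (Nat.card G).gcd n * n =
        Nat.card G / (Nat.card G).gcd n * ((Nat.card G).gcd n * n') by rw [← hn'], ← mul_assoc,
        Nat.div_mul_cancel (Nat.gcd_dvd_left _ _)]
    rw [this, pow_mul, pow_card_eq_one', one_pow]
  have h2 : (powMonoidHom n : G →* G).range = (powMonoidHom d : G →* G).ker := by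
    refine Subgroup.eq_of_le_of_card_ge h1 ?_
    rw [IsCyclic.card_powMonoidHom_range, IsCyclic.card_powMonoidHom_ker,
      Nat.gcd_eq_right (Nat.div_dvd_of_dvd (Nat.gcd_dvd_left _ _))]
  change a ∈ (powMonoidHom n : G →* G).range ↔ _
  rw [h2]; rfl

theorem field_exists_pow_eq_iff {F : Type*} [Field F] [Fintype F] {q : ℕ} (hF : Fintype.card F = q)
    (n : ℕ) {a : F} (ha : a ≠ 0) :
    (∃ c : F, c ≠ 0 ∧ c ^ n = a) ↔ a ^ ((q - 1) / (q - 1).gcd n) = 1 := by
  have h := exists_pow_eq_iff n (Units.mk0 a ha)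
  rw [Nat.card_units, Nat.card_eq_fintype_card, hF, Units.ext_iff] at h
  simp only [Units.val_pow_eq_pow_val, Units.val_mk0, Units.val_one] at h
  rw [← h]
  constructor
  · rintro ⟨c, hc, hc'⟩
    exact ⟨Units.mk0 c hc, Units.ext (by simpa using hc')⟩
  · rintro ⟨c, hc⟩
    exact ⟨c, c.ne_zero, by simpa using congrArg Units.val hc⟩

theorem padicValNat_gcd' {p a b : ℕ} [Fact p.Prime] (ha : a ≠ 0) (hb : b ≠ 0) :
    padicValNat p (a.gcd b) = min (padicValNat p a) (padicValNat p b) := by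
  have hp : p.Prime := Fact.out
  rw [← Nat.factorization_def _ hp, ← Nat.factorization_def _ hp, ← Nat.factorization_def _ hp,
    Nat.factorization_gcd ha hb, Finsupp.inf_apply]

theorem padicValNat_div_gcd {p a b : ℕ} [Fact p.Prime] (ha : a ≠ 0) (hb : b ≠ 0) :
    padicValNat p (a / a.gcd b) = padicValNat p a - min (padicValNat p a) (padicValNat p b) := by
  rw [padicValNat.div_of_dvd (Nat.gcd_dvd_left _ _), padicValNat_gcd' ha hb]

theorem div_gcd_ne_zero {a : ℕ} (ha : a ≠ 0) (b : ℕ) : a / a.gcd b ≠ 0 :=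
  (Nat.div_pos (Nat.le_of_dvd (Nat.pos_of_ne_zero ha) (Nat.gcd_dvd_left _ _))
    (Nat.gcd_pos_of_pos_left _ (Nat.pos_of_ne_zero ha))).ne'

theorem two_ne_zero_of_odd_card {F : Type*} [Field F] [Fintype F] {q : ℕ} (hF : Fintype.card F = q)
    (hq : Odd q) : (2 : F) ≠ 0 := by
  intro h
  have h1 : (q : F) = 0 := by rw [← hF]; exact FiniteField.cast_card_eq_zero F
  obtain ⟨k, rfl⟩ := hq
  push_cast at h1
  rw [h] at h1
  simp at h1

theorem orderOf_neg_one_of_odd_card {F : Type*} [Field F] [Fintype F] {q : ℕ}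
    (hF : Fintype.card F = q) (hq : Odd q) : orderOf (-1 : F) = 2 := by
  refine orderOf_eq_prime (by simp) fun h => two_ne_zero_of_odd_card hF hq ?_
  linear_combination -h

theorem neg_one_eq_pow_iff {F : Type*} [Field F] [Fintype F] {q : ℕ} (hF : Fintype.card F = q)
    (hq : Odd q) {n : ℕ} (hn : 1 ≤ n) :
    (∃ c : F, c ≠ 0 ∧ c ^ n = -1) ↔ padicValNat 2 n < padicValNat 2 (q - 1) := by
  have h1 : q - 1 ≠ 0 := by
    have : 1 < q := hF ▸ Fintype.one_lt_card
    omega
  rw [field_exists_pow_eq_iff hF n (by simp), ← orderOf_dvd_iff_pow_eq_one,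
    orderOf_neg_one_of_odd_card hF hq]
  have := padicValNat_dvd_iff_le (p := 2) (n := 1) (div_gcd_ne_zero h1 n)
  rw [pow_one, padicValNat_div_gcd h1 (by omega)] at this
  rw [this]
  omega

end Cfsg.Agent.Lib.GL.Cyc
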