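import Mathlib
import Cfsg.Agent.Lib.GL.Invol4

/-!
Counting classes of involutions of orthogonal groups in characteristic two.
-/

set_option autoImplicit false

open Module Matrix QuadraticMap

namespace Cfsg.Agent.Lib.GL.SymTwo

open Cfsg.Agent.Lib.Forms

variable {F : Type*} [Field F] [CharP F 2] {V : Type*} [AddCommGroup V] [Module F V]
  {Q : QuadraticForm F V}

/-- The types of involutions that occur in an orthogonal group of Witt index `k`. -/
def Types (Q : QuadraticForm F V) (m k : ℕ) : Prop :=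
  (∀ s, Even s ∧ s ≤ k ↔ ∃ T : OG Q, T * T = 1 ∧ ty (polarBilin Q) T.1 = (s, True)) ∧
    ∀ s ≠ 0, s ≤ m ↔ ∃ T : OG Q, T * T = 1 ∧ ty (polarBilin Q) T.1 = (s, False)

variable [FiniteDimensional F V] [Finite F]

theorem types_of (hQ : Nondeg Q) {m k : ℕ} (hm : finrank F V = 2 * m) {e f : Fin k → V}
    (he : IsHypSys Q e f) (hk : ∀ U : Submodule F V, (∀ v ∈ U, Q v = 0) → finrank F U ≤ k)
    {v : Fin m → V} (hv : LinearIndependent F v) (h0 : ∀ i j, polar Q (v i) (v j) = 0)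
    (h1 : ∀ i, Q (v i) = 1) : Types Q m k := by
  have hA := isAlt_polarBilin Q
  refine ⟨fun s => ⟨fun h => ?_, fun ⟨T, hT, h⟩ => ⟨(le_of_ty hA hQ (OG.map_polar T)
    (OG.apply_apply hT) h).2 trivial, ?_⟩⟩, fun s hs => ⟨fun h => ?_, fun ⟨T, hT, h⟩ => ?_⟩⟩
  · obtain ⟨T, h2, h3, h4⟩ := exists_ty_alt hA hQ (he.linearIndependent.comp _ Sum.inl_injective)
      he.ee h.1 h.2
    exact ⟨⟨T.1, h4 Q rfl he.qe⟩, Subtype.ext (congrArg Subtype.val h2 :), h3⟩
  · exact (congrArg Prod.fst h).ge.trans (hk _ ((ty_snd_iff T).1 (by rw [h]; trivial)))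
  · obtain ⟨T, h2, h3, h4⟩ := exists_ty_nonalt hA hQ hv h0 hs h
    exact ⟨⟨T.1, h4 Q rfl h1⟩, Subtype.ext (congrArg Subtype.val h2 :), h3⟩
  · have := (le_of_ty hA hQ (OG.map_polar T) (OG.apply_apply hT) h).1
    omega

theorem types_qPlus (m : ℕ) : Types (qPlus m F) m m :=
  types_of (nondeg_qPlus m) (by simp [two_mul]) (isHypSys_qPlus m)
    (fun U hU => by simpa [← two_mul] using (nondeg_qPlus m).two_mul_finrank_le_of_ts hU)
    (v := fun i => Pi.single (.inl i) 1 + Pi.single (.inr i) 1)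
    (Fintype.linearIndependent_iff.2 fun g hg i => by
      simpa [Pi.single_apply] using congrFun hg (.inl i))
    (fun i j => by simp [polar_qPlus, Pi.single_apply, CharTwo.add_self_eq_zero, eq_comm])
    fun i => by simp [qPlus_apply, Pi.single_apply]

theorem types_qMinus (m : ℕ) {a b : F}
    (hab : ∀ z₁ z₂ : F, z₁ ^ 2 + a * z₁ * z₂ + b * z₂ ^ 2 = 0 → z₁ = 0 ∧ z₂ = 0) :
    Types (qMinus m F a b) (m + 1) m :=
  types_of (nondeg_qMinus m (disc_ne_zero_of_anisotropic hab)) (by simp; omega) (isHypSys_qMinus m a b)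
    (fun U hU => finrank_ts_le_qMinus m hab hU)
    (v := Fin.cons (Pi.single (.inr 0) 1)
      fun i => Pi.single (.inl (.inl i)) 1 + Pi.single (.inl (.inr i)) 1)
    (Fintype.linearIndependent_iff.2 fun g hg => Fin.cases
      (by simpa [Pi.single_apply, Fin.sum_univ_succ] using congrFun hg (.inr 0)) fun i => by
        simpa [Pi.single_apply, Fin.sum_univ_succ] using congrFun hg (.inl (.inl i)))
    (by simp [Fin.forall_fin_succ, polar_qMinus, Pi.single_apply, CharTwo.add_self_eq_zero,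
      CharTwo.two_eq_zero, eq_comm])
    (by simp [Fin.forall_fin_succ, qMinus_apply, Pi.single_apply])

theorem Types.le (hQ : Nondeg Q) {m k : ℕ} (hm : finrank F V = 2 * m) (h : Types Q m k) {s : ℕ}
    (h1 : Even s) (h2 : s ≤ k) : s ≤ m := by
  obtain ⟨T, hT, h3⟩ := (h.1 s).1 ⟨h1, h2⟩
  have := (le_of_ty (isAlt_polarBilin Q) hQ (OG.map_polar T) (OG.apply_apply hT) h3).1
  omega

theorem card_classes_OG (hQ : Nondeg Q) {m k : ℕ} (hm : finrank F V = 2 * m) (h : Types Q m k) :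
    Nat.card {C : ConjClasses (OG Q) // ∃ g, ConjClasses.mk g = C ∧ orderOf g = 2} = m + k / 2 := by
  rw [card_classes_two (fun g : OG Q => ty (polarBilin Q) g.1) (fun g => by simp [ty_eq_zero_iff])
    (isConj_OG_iff hQ) _ _ (m + k) (by omega) (fun s _ => h.1 s) h.2, card_even_subtype,
    card_le_subtype, add_comm]

theorem exists_Om_iff (hQ : Nondeg Q) (hN : NonExc Q) {s : ℕ} {p : Prop} :
    (∃ T : Om Q, T * T = 1 ∧ ty (polarBilin Q) T.1.1 = (s, p)) ↔
      Even s ∧ ∃ T : OG Q, T * T = 1 ∧ ty (polarBilin Q) T.1 = (s, p) :=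
  ⟨fun ⟨T, h1, h2⟩ => ⟨by simpa [h2] using (mem_Om_iff_even hQ hN _).1 T.2, T.1,
    congrArg Subtype.val h1, h2⟩, fun ⟨h0, T, h1, h2⟩ =>
    ⟨⟨T, (mem_Om_iff_even hQ hN _).2 (by rwa [h2])⟩, Subtype.ext h1, h2⟩⟩

theorem card_classes_Om_of_lt (hQ : Nondeg Q) (hN : NonExc Q) {m k : ℕ} (hm : finrank F V = 2 * m)
    (h : Types Q m k) (hk : Even m → k < m) :
    Nat.card {C : ConjClasses (Om Q) // ∃ g, ConjClasses.mk g = C ∧ orderOf g = 2} =
      m / 2 + k / 2 := by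
  rw [card_classes_two (fun g : Om Q => ty (polarBilin Q) g.1.1) (fun g => by simp [ty_eq_zero_iff])
    (fun g g' hg hg' => (isConj_Om_iff hQ hN g g' hg hg' id).trans (and_iff_left fun h1 => by
      have := (h.1 m).2 ⟨g.1, congrArg Subtype.val hg, (isLag_iff _ hm).1 h1⟩
      exact absurd this.2 (hk this.1).not_ge))
    (fun s => Even s ∧ s ≤ k) (fun s => Even s ∧ s ≤ m) (m + k) (by omega)
    (fun s _ => by rw [exists_Om_iff hQ hN, ← h.1, and_self_left])
    (fun s hs => by rw [exists_Om_iff hQ hN, ← h.2 s hs]), card_even_subtype, card_even_subtype,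
    add_comm]

theorem card_classes_Om_of_even (hQ : Nondeg Q) (hN : NonExc Q) {m : ℕ} (hm : finrank F V = 2 * m)
    (h : Types Q m m) (hm0 : m ≠ 0) (hm' : Even m) :
    Nat.card {C : ConjClasses (Om Q) // ∃ g, ConjClasses.mk g = C ∧ orderOf g = 2} =
      m / 2 + (m + 2) / 2 := by
  classical
  obtain ⟨T, hT, h1⟩ := (exists_Om_iff hQ hN).2 ⟨hm', (h.1 m).1 ⟨hm', le_rfl⟩⟩
  have hU := (isLag_iff _ hm).2 h1
  set U := resSp T.1
  have h2 : ∀ g : Om Q, g * g = 1 → (ty (polarBilin Q) g.1.1).1 ≤ m := fun g hg => by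
    have := (le_of_ty (isAlt_polarBilin Q) hQ (OG.map_polar g.1)
      (OG.apply_apply (congrArg Subtype.val hg)) (Prod.mk.eta.symm)).1
    omega
  have h3 : ∀ ε, ∃ g : Om Q, g * g = 1 ∧ ty (polarBilin Q) g.1.1 = (m, True) ∧
      lagPar U (resSp g.1) = ε := fun ε => by
    have : Nontrivial V := Module.nontrivial_of_finrank_pos (R := F) (by omega)
    obtain ⟨v, hv⟩ := hQ.exists_Q_ne_zero
    by_cases h3 : lagPar U U = ε
    · exact ⟨T, hT, h1, h3⟩
    refine ⟨⟨refl Q v * T.1 * (refl Q v)⁻¹, Subgroup.Normal.conj_mem inferInstance _ T.2 _⟩,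
      Subtype.ext (by simp [show T.1 * T.1 = 1 from congrArg Subtype.val hT]),
      (ty_conj _ _ (OG.map_polar _)).trans h1, ?_⟩
    rw [resSp_conj, hQ.lagPar_refl hU hU hv, Int.units_ne_iff_eq_neg.1 h3, neg_neg]
  rw [card_classes_two (fun g : Om Q => if ty (polarBilin Q) g.1.1 = (m, True) ∧
      lagPar U (resSp g.1) = -1 then (m + 2, True) else ty (polarBilin Q) g.1.1) (fun g => ?_)
    (fun g g' hg hg' => ?_) (fun s => Even s ∧ s ≤ m + 2) (fun s => Even s ∧ s ≤ m) (m + 2) (by omega)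
    (fun s _ => ⟨fun hs => ?_, fun ⟨g, hg, hs⟩ => ?_⟩)
    (fun s hs => ?_), card_even_subtype, card_even_subtype, add_comm]
  · split_ifs with h4
    · refine iff_of_false (by simp) fun h5 => hm0 ?_
      simpa [h4.1] using (ty_eq_zero_iff (B := polarBilin Q) g.1.1).2 (by simp [h5])
    · simp [ty_eq_zero_iff]
  · rw [isConj_Om_iff hQ hN g g' hg hg' fun _ => hU, isLag_iff _ hm]
    have h5 := h2 g hg
    have h6 := h2 g' hg'
    split_ifs with h4 h7 h7
    · simp [h4, h7]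
    · exact iff_of_false (fun h8 => h7 ⟨h8.1 ▸ h4.1, h8.2 h4.1 ▸ h4.2⟩) fun h8 => by
        rw [← h8] at h6; omega
    · exact iff_of_false (fun h8 => h4 ⟨h8.1 ▸ h7.1, h8.2 (h8.1 ▸ h7.1) ▸ h7.2⟩) fun h8 => by
        rw [h8] at h5; omega
    · refine and_iff_left_of_imp fun h8 h9 => ?_
      rw [Int.units_ne_iff_eq_neg.1 fun h => h4 ⟨h9, h⟩,
        Int.units_ne_iff_eq_neg.1 fun h => h7 ⟨h8 ▸ h9, h⟩]
  · rcases (show s < m ∨ s = m ∨ s = m + 2 by
      rw [Nat.even_iff] at hm' hs; omega) with h4 | rfl | rfl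
    · obtain ⟨g, hg, h5⟩ := (exists_Om_iff hQ hN).2 ⟨hs.1, (h.1 s).1 ⟨hs.1, h4.le⟩⟩
      exact ⟨g, hg, by simp [h5, h4.ne]⟩
    · exact (h3 1).imp fun g hg => ⟨hg.1, by simp [hg.2]⟩
    · exact (h3 (-1)).imp fun g hg => ⟨hg.1, by simp [hg.2]⟩
  · split_ifs at hs
    · obtain ⟨rfl, -⟩ := Prod.mk.inj hs
      exact ⟨hm'.add even_two, le_rfl⟩
    · exact ((h.1 s).2 ⟨g.1, congrArg Subtype.val hg, hs⟩).imp_right (by omega)
  · rw [h.2 s hs, ← exists_Om_iff hQ hN]
    refine exists_congr fun g => and_congr_right fun _ => ?_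
    split_ifs with h4 <;> simp [h4]

end Cfsg.Agent.Lib.GL.SymTwo
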