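import Mathlib
import Cfsg.Agent.Lib.GL.JordanForm
import Cfsg.Agent.Lib.GL.ProjClass2

/-!
Unipotent elements of the unitary groups.
-/

set_option autoImplicit false

open Module Matrix Polynomial

namespace Cfsg.Agent.Lib.GL.Jordan

open Cfsg.Agent.Lib.GL.Sim Cfsg.Agent.Lib.GL.Count Cfsg.Agent.Lib.GL.Herm
  Cfsg.Agent.Lib.GL.HermConj Cfsg.Agent.Lib.GL.Isom

variable {K : Type*} [Field K] {σ : K →+* K}
variable {κ : Type*} [Fintype κ] [DecidableEq κ]

theorem kerSeq_add_rank (u : Matrix κ κ K) (j : ℕ) :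
    kerSeq u j + ((u - 1) ^ j).rank = Fintype.card κ := by
  rw [kerSeq, ← toLin'_pow, finrank_ker_add_rank]

theorem inv_sub_one_pow (u : GL κ K) (j : ℕ) :
    (((u⁻¹ : GL κ K) : Matrix κ κ K) - 1) ^ j =
      (-((u⁻¹ : GL κ K) : Matrix κ κ K)) ^ j * ((u : Matrix κ κ K) - 1) ^ j := by
  rw [← Commute.mul_pow]
  · congr 1; rw [neg_mul, mul_sub, u.inv_mul, mul_one, neg_sub]
  · exact (((Commute.refl _).units_inv_left).sub_right (Commute.one_right _)).neg_left

theorem adj_sub_one_pow (A : Matrix κ κ K) (j : ℕ) :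
    (adj κ σ A - 1) ^ j = adj κ σ ((A - 1) ^ j) := by
  induction j with
  | zero => simp [adj_one]
  | succ j ih => rw [pow_succ, ih, pow_succ', adj_mul, map_sub, adj_one]

theorem isConj_adj_inv (u : GL κ K) {p : ℕ} (hu : ((u : Matrix κ κ K) - 1) ^ p = 0) :
    IsConj (u : Matrix κ κ K) (adj κ σ (u⁻¹ : GL κ K)) := by
  refine (isConj_iff_kerSeq hu ?_).2 (funext fun j => ?_)
  · rw [adj_sub_one_pow, inv_sub_one_pow, hu, mul_zero, map_zero]
  · have h1 := kerSeq_add_rank (u : Matrix κ κ K) j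
    have h2 := kerSeq_add_rank (adj κ σ (u⁻¹ : GL κ K)) j
    rw [adj_sub_one_pow, adj_apply (_ ^ j), rank_transpose, Mult.rank_map_eq, inv_sub_one_pow,
      rank_mul_eq_right_of_isUnit_det _ _
        ((isUnit_iff_isUnit_det _).1 ((u⁻¹).isUnit.neg.pow _))] at h2
    omega

theorem exists_GU_of_unipotent [Fintype K] {q n p : ℕ} (hK : Fintype.card K = q ^ 2)
    (u : GL (Fin n) K) (hu : ((u : Matrix (Fin n) (Fin n) K) - 1) ^ p = 0) :
    ∃ g : Cfsg.GU n K q, IsConj u (g : GL (Fin n) K) := by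
  obtain ⟨σ, hσq, hσ⟩ := exists_isInvol hK
  exact (exists_GU_isConj_iff hσq hσ u).2 (isConj_adj_inv u hu)

section Fixed

variable {M T : Type*} [AddCommGroup M] [Module K M] [AddCommGroup T] [Module K T]

theorem card_fixed_sq (hσ : IsInvol σ) (s : M →+ M) (hs : ∀ (c : K) x, s (c • x) = σ c • s x)
    (hss : ∀ x, s (s x) = x) : Nat.card {x // s x = x} ^ 2 = Nat.card M := by
  obtain ⟨a, ha⟩ := hσ.ne
  have ha' : a - σ a ≠ 0 := sub_ne_zero.2 ha.symm
  have ha'' : σ a - a ≠ 0 := sub_ne_zero.2 ha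
  rw [pow_two, ← Nat.card_prod]
  refine Nat.card_congr (Equiv.ofBijective (fun z => z.1.1 + a • z.2.1) ⟨?_, fun x => ?_⟩)
  · rintro ⟨⟨y, hy⟩, z, hz⟩ ⟨⟨y', hy'⟩, z', hz'⟩ h
    dsimp only at h
    have h1 := congrArg s h
    rw [map_add, map_add, hs, hs, hy, hz, hy', hz'] at h1
    have h2 : z = z' := by
      refine smul_right_injective M ha' ?_
      dsimp only
      linear_combination (norm := module) h - h1
    subst h2
    obtain rfl : y = y' := add_right_cancel h
    rfl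
  · have h1 : s ((a - σ a)⁻¹ • (x - s x)) = (a - σ a)⁻¹ • (x - s x) := by
      rw [hs, map_sub s, hss, map_inv₀, map_sub, hσ.invol, ← neg_sub a, ← neg_sub x, inv_neg,
        neg_smul, smul_neg, neg_neg]
    refine ⟨(⟨x - a • ((a - σ a)⁻¹ • (x - s x)), ?_⟩, ⟨_, h1⟩), by simp⟩
    rw [map_sub, hs, h1]
    have h2 : (a - σ a) • ((a - σ a)⁻¹ • (x - s x)) = x - s x := smul_inv_smul₀ ha' _
    linear_combination (norm := module) h2

theorem card_fixed_preimage [Finite M] (hσ : IsInvol σ) (s : M →+ M) (t : T →+ T)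
    (ht : ∀ (c : K) x, t (c • x) = σ c • t x) (hss : ∀ x, s (s x) = x) (Θ : M →+ T)
    (hΘ : Function.Surjective Θ) (hst : ∀ x, Θ (s x) = t (Θ x)) (U : T → Prop) :
    Nat.card {x // s x = x ∧ U (Θ x)} * Nat.card {y // t y = y} =
      Nat.card {x // s x = x} * Nat.card {y // t y = y ∧ U y} := by
  let Θ' : s.eqLocus (AddMonoidHom.id M) →+ t.eqLocus (AddMonoidHom.id T) :=
    (Θ.domRestrict _).codRestrict _ fun x => (hst x).symm.trans (congrArg Θ x.2)
  have h := card_preimage_mul Θ' (by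
    rintro ⟨y, hy⟩
    obtain ⟨c, hc⟩ := hσ.exists_trace_eq_one
    obtain ⟨x, hx⟩ := hΘ (c • y)
    refine ⟨⟨x + s x, show s _ = _ by rw [map_add, hss, add_comm]; rfl⟩, Subtype.ext ?_⟩
    change Θ (x + s x) = y
    rw [map_add, hst, hx, ht, show t y = y from hy, ← add_smul, hc, one_smul]) (fun y => U y.1)
  rw [Nat.card_congr (Equiv.subtypeSubtypeEquivSubtypeInter _ U)] at h
  refine Eq.trans ?_ h
  congr 1
  exact (Nat.card_congr (Equiv.subtypeSubtypeEquivSubtypeInter (fun x => s x = x) fun x => U (Θ x))).symm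

end Fixed

theorem card_herm_mul_card_unitary [Finite K] (hσ : IsInvol σ) {u : Matrix κ κ K}
    (hu : adj κ σ u * u = 1) :
    Nat.card {H : Matrix κ κ K // Commute H u ∧ adj κ σ H = H ∧ IsUnit H} *
      Nat.card {g : Matrix κ κ K // Commute g u ∧ adj κ σ g * g = 1} =
      Nat.card {g : Matrix κ κ K // Commute g u ∧ IsUnit g} := by
  have hd := antiInv_adj (ι := κ) hσ
  have hc : ∀ g, Commute g u → Commute (adj κ σ g) u := fun g hg => by
    have h1 := congrArg (adj κ σ) hg.eq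
    rw [adj_mul, adj_mul] at h1
    calc adj κ σ g * u = u * (adj κ σ u * adj κ σ g) * u := by
          rw [← mul_assoc, mul_eq_one_comm.1 hu, one_mul]
      _ = u * adj κ σ g := by rw [h1, mul_assoc, mul_assoc, hu, mul_one]
  refine (card_eq_mul_of_fibers (fun g => ⟨adj κ σ g.1 * g.1, (hc _ g.2.1).mul_left g.2.1,
    by rw [adj_mul, adj_adj hσ], (hd.isUnit g.2.2).mul g.2.2⟩) ?_).symm
  rintro ⟨H, h1, h2, h3⟩
  obtain ⟨y, h4, rfl⟩ := exists_adj_mul_self hσ h3 h2
  have h5 := h4 u h1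
  have e1 : adj κ σ (y⁻¹ : GL κ K) * adj κ σ y = 1 := by rw [← adj_mul, y.mul_inv, adj_one]
  refine ⟨⟨fun g => ⟨g.1.1 * (y⁻¹ : GL κ K), g.1.2.1.mul_left h5.units_inv_left, ?_⟩,
    fun w => ⟨⟨w.1 * y, w.2.1.mul_left h5, (IsUnit.of_mul_eq_one_right _ w.2.2).mul y.isUnit⟩,
      Subtype.ext ?_⟩, fun g => by simp, fun w => by simp⟩⟩
  · have := congrArg Subtype.val g.2
    dsimp only at this
    rw [adj_mul, mul_assoc, ← mul_assoc _ g.1.1, this, ← mul_assoc, ← mul_assoc, e1, one_mul,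
      y.mul_inv]
  · dsimp only
    rw [adj_mul, mul_assoc, ← mul_assoc _ w.1, w.2.2, one_mul]

theorem card_unitary_matrix [Fintype K] {q : ℕ} (hK : Fintype.card K = q ^ 2)
    (hσq : ∀ a, σ a = a ^ q) (hσ : IsInvol σ) :
    (Nat.card {g : Matrix κ κ K // adj κ σ g * g = 1} : ℤ) = guOrder q (Fintype.card κ) := by
  rw [← card_GU hK]
  congr 1
  let e := reindexAlgEquiv K K (Fintype.equivFin κ)
  have he : ∀ g, adj _ σ (e g) = e (adj κ σ g) := fun g => rfl
  exact Nat.card_congr ((e.toEquiv.subtypeEquiv (q := fun g => adj _ σ g * g = 1) fun g => by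
      change _ ↔ adj _ σ (e g) * e g = 1
      rw [he, ← map_mul, map_eq_one_iff e e.injective]).trans
    { toFun := fun g => guMk hσq g.1 ((unitary_iff hσ _).2 g.2)
      invFun := fun g => ⟨g.1.1, (mem_GU_iff_adj hσq hσ _).1 g.2⟩
      left_inv := fun _ => rfl
      right_inv := fun _ => Subtype.ext (Units.ext rfl) })

theorem inv_stdHerm (hσ : IsInvol σ) {u : Matrix κ κ K} (hu : adj κ σ u * u = 1) :
    Inv (stdHerm κ σ) (toLin' (u - 1)) := by
  rw [map_sub, toLin'_one, ← End.one_eq_id, inv_iff_sub_one]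
  exact (preserves_stdHerm_iff u).2 ((unitary_iff hσ u).2 hu)

variable {ι : Type*} [Fintype ι] [DecidableEq ι] {d : ι → ℕ}

theorem card_unitary_centralizer [Fintype K] {q : ℕ} (hK : Fintype.card K = q ^ 2)
    (hσq : ∀ a, σ a = a ^ q) (hσ : IsInvol σ) {u : Matrix κ κ K} (hu : adj κ σ u * u = 1) {b}
    (h : IsJordan (toLin' (u - 1)) d b) {s : Finset ℕ} (hs : ∀ k, d k ∈ s) {γ : ℕ}
    (hγ : ∑ k, ∑ l, min (d k) (d l) = γ + ∑ i ∈ s, Fintype.card {k // d k = i} ^ 2) :
    (Nat.card {g : Matrix κ κ K // Commute g u ∧ adj κ σ g * g = 1} : ℤ) =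
      (q : ℤ) ^ γ * ∏ i ∈ s, guOrder q (Fintype.card {k // d k = i}) := by
  have hq := one_lt_of_card_eq_sq hK
  have hB := inv_stdHerm hσ hu
  have hH := isHerm_stdHerm hσ κ
  have hG := h.isUnit_fblk hB hH.nondeg'
  obtain ⟨δ, hδ0, hδ⟩ := hσ.exists_skew
  have hcomm : ∀ g : Matrix κ κ K, Commute (toLin' g) (toLin' (u - 1)) ↔ Commute g u := fun g => by
    rw [commute_toLin'_iff, commute_sub_one_iff]
  let E : Submodule K (Matrix κ κ K) := (cent (toLin' (u - 1))).comap toLin'.toLinearMap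
  have hE : ∀ g, g ∈ E ↔ Commute g u := hcomm
  have hc : ∀ g, Commute g u → Commute (adj κ σ g) u := fun g hg => by
    have h1 := congrArg (adj κ σ) hg.eq
    rw [adj_mul, adj_mul] at h1
    calc adj κ σ g * u = u * (adj κ σ u * adj κ σ g) * u := by
          rw [← mul_assoc, mul_eq_one_comm.1 hu, one_mul]
      _ = u * adj κ σ g := by rw [h1, mul_assoc, mul_assoc, hu, mul_one]
  let sE : E →+ E := ((adj κ σ).domRestrict E).codRestrict E
    fun g => (hE _).2 (hc _ ((hE _).1 g.2))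
  let T := ∀ i : s, Matrix {k // d k = i} {k // d k = i} K
  let tT : T →+ T := AddMonoidHom.pi fun i => (adj _ σ).comp (Pi.evalAddMonoidHom _ i)
  let Θ : E →+ T :=
    { toFun := fun g i => δ ^ (i.1 - 1) • ((blocks b s (toLin' g.1) i)ᵀ * fblk (stdHerm κ σ) b i)
      map_zero' := by ext1 i; simp; rfl
      map_add' := fun g g' => by ext1 i; simp [add_mul]; rfl }
  have hΘ : ∀ (g : E) (i : s), Θ g i = δ ^ (i.1 - 1) • fblk (stdHerm κ σ ∘ₗ toLin' g.1) b i :=
    fun g i => by rw [h.fblk_comp_left hB (g := toLin' g.1) g.2]; rfl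
  have h3 := card_fixed_preimage hσ sE tT (fun c x => funext fun i => adj_smul c _)
    (fun x => Subtype.ext (adj_adj hσ _)) Θ (fun M => by
      obtain ⟨g, h1, h2⟩ := h.exists_blocks_eq s
        fun i => ((δ ^ (i.1 - 1))⁻¹ • (M i * ((hG i).unit⁻¹).1))ᵀ
      obtain ⟨g, rfl⟩ := toLin'.surjective g
      refine ⟨⟨g, h1⟩, funext fun i => ?_⟩
      change δ ^ (i.1 - 1) • ((blocks b s (toLin' g) i)ᵀ * fblk (stdHerm κ σ) b i) = M i
      rw [h2, transpose_transpose, smul_mul_assoc, smul_inv_smul₀ (pow_ne_zero _ hδ0), mul_assoc,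
        IsUnit.val_inv_mul, mul_one])
    (fun g => funext fun i => by
      change _ = adj _ σ (Θ g i)
      rw [hΘ, hΘ]
      ext k l
      rw [adj_apply, transpose_apply, map_apply, Matrix.smul_apply, Matrix.smul_apply,
        h.fblk_swap (hB.comp_left (g := toLin' g.1) g.2), fblk_apply]
      change _ * stdHerm κ σ (adj κ σ g.1 *ᵥ _) _ = σ (_ * (_ * stdHerm κ σ (g.1 *ᵥ _) _))
      rw [stdHerm_adj hσ, adj_adj hσ, hH.herm, map_mul, map_mul, map_pow, hδ, map_pow, map_neg,
        map_one, ← mul_assoc, ← mul_pow]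
      simp)
    (fun M => ∀ i, IsUnit (M i))
  have h4 : Nat.card {x // sE x = x} = q ^ (∑ k, ∑ l, min (d k) (d l)) := by
    refine Nat.pow_left_injective two_ne_zero ?_
    dsimp only
    rw [card_fixed_sq hσ sE (fun c x => Subtype.ext (adj_smul c _))
      (fun x => Subtype.ext (adj_adj hσ _)), ← pow_mul, mul_comm, pow_mul, ← hK, ← h.card_commute]
    exact Nat.card_congr (toLin'.toEquiv.subtypeEquiv fun _ => Iff.rfl)
  have h5 : Nat.card {y // tT y = y} = q ^ (∑ i ∈ s, Fintype.card {k // d k = i} ^ 2) := by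
    refine Nat.pow_left_injective two_ne_zero ?_
    dsimp only
    rw [card_fixed_sq hσ tT (fun c x => funext fun i => adj_smul c _)
      (fun x => funext fun i => adj_adj hσ _), ← pow_mul, mul_comm, pow_mul, ← hK, Nat.card_pi]
    simp only [card_matrix']
    rw [Finset.prod_pow_eq_pow_sum, Finset.sum_coe_sort s (fun i => Fintype.card {k // d k = i} ^ 2)]
  let herm : ℕ → ℕ := fun i => Nat.card {H : Matrix {k // d k = i} {k // d k = i} K //
    adj _ σ H = H ∧ IsUnit H}
  have h6 : Nat.card {y // tT y = y ∧ ∀ i, IsUnit (y i)} = ∏ i ∈ s, herm i := by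
    rw [← Finset.prod_coe_sort, ← card_pi_subtype
      (fun (i : s) (H : Matrix {k // d k = i} {k // d k = i} K) => adj _ σ H = H ∧ IsUnit H)]
    exact Nat.card_congr (Equiv.subtypeEquivRight fun y => by rw [forall_and, funext_iff]; rfl)
  have h7 : Nat.card {x // sE x = x ∧ ∀ i, IsUnit (Θ x i)} =
      Nat.card {H : Matrix κ κ K // Commute H u ∧ adj κ σ H = H ∧ IsUnit H} := by
    have key : ∀ x : E, (∀ i, IsUnit (Θ x i)) ↔ IsUnit x.1 := fun x => by
      rw [← isUnit_toLin'_iff', h.isUnit_iff_blocks hs (g := toLin' x.1) x.2]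
      refine forall_congr' fun i => ?_
      change IsUnit (δ ^ (i.1 - 1) • ((blocks b s (toLin' x.1) i)ᵀ * fblk (stdHerm κ σ) b i)) ↔ _
      have := hG i
      simp only [isUnit_iff_isUnit_det, isUnit_iff_ne_zero] at this ⊢
      simp [hδ0, this]
    exact Nat.card_congr
      { toFun := fun x => ⟨x.1.1, (hE _).1 x.1.2, congrArg Subtype.val x.2.1, (key _).1 x.2.2⟩
        invFun := fun H => ⟨⟨H.1, (hE _).2 H.2.1⟩, Subtype.ext H.2.2.1, (key _).2 H.2.2.2⟩
        left_inv := fun _ => rfl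
        right_inv := fun _ => rfl }
  rw [h4, h5, h6, h7, hγ, pow_add, mul_right_comm] at h3
  replace h3 := Nat.eq_of_mul_eq_mul_right (pow_pos (by omega) _) h3
  have h8 := h.card_isUnit_commute hs
  rw [hγ, pow_add, mul_right_comm] at h8
  replace h8 := Nat.eq_of_mul_eq_mul_right (pow_pos Fintype.card_pos _) h8
  have h9 := card_herm_mul_card_unitary hσ hu
  rw [h3, Nat.card_congr (toLin'.toEquiv.subtypeEquiv (q := fun g => Commute g (toLin' (u - 1)) ∧
    IsUnit g) fun g => and_congr (hcomm g).symm isUnit_toLin'_iff'.symm), h8] at h9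
  have h10 : ∀ i, (glOrder (Fintype.card K) (Fintype.card {k // d k = i}) : ℤ) =
      herm i * guOrder q (Fintype.card {k // d k = i}) := fun i => by
    have := card_herm_mul_card_unitary (κ := {k // d k = i}) hσ (u := 1) (by rw [adj_one, one_mul])
    simp only [Commute.one_right, true_and] at this
    rw [← card_isUnit_matrix, ← this, ← card_unitary_matrix hK hσq hσ, Nat.cast_mul]
  have h11 : ∀ i, (herm i : ℤ) ≠ 0 := fun i => by
    have : Nonempty {H : Matrix {k // d k = i} {k // d k = i} K // adj _ σ H = H ∧ IsUnit H} :=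
      ⟨⟨1, adj_one, isUnit_one⟩⟩
    exact_mod_cast Nat.card_pos.ne'
  replace h9 := congrArg (Nat.cast : ℕ → ℤ) h9
  push_cast at h9
  simp only [h10, Finset.prod_mul_distrib] at h9
  refine mul_left_cancel₀ (mul_ne_zero (pow_ne_zero γ (show (q : ℤ) ≠ 0 by omega))
    (Finset.prod_ne_zero_iff.2 fun i (_ : i ∈ s) => h11 i)) ?_
  rw [h9, hK]
  push_cast
  ring

theorem card_centralizer_GU [Fintype K] {q n : ℕ} (hσq : ∀ a, σ a = a ^ q) (hσ : IsInvol σ)
    (u : Cfsg.GU n K q) :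
    Nat.card (Subgroup.centralizer ({u} : Set (Cfsg.GU n K q))) =
      Nat.card {g : Matrix (Fin n) (Fin n) K // Commute g u.1.1 ∧ adj _ σ g * g = 1} :=
  Nat.card_congr
    { toFun := fun g => ⟨g.1.1.1, congrArg (fun x : Cfsg.GU n K q => x.1.1)
        (Subgroup.mem_centralizer_singleton_iff.1 g.2), (mem_GU_iff_adj hσq hσ _).1 g.1.2⟩
      invFun := fun g => ⟨guMk hσq g.1 ((unitary_iff hσ _).2 g.2.2),
        Subgroup.mem_centralizer_singleton_iff.2 (Subtype.ext (Units.ext g.2.1))⟩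
      left_inv := fun _ => Subtype.ext (Subtype.ext (Units.ext rfl))
      right_inv := fun _ => rfl }

omit [DecidableEq ι] in
theorem IsJordan.fblk_isometry {V : Type*} [AddCommGroup V] [Module K V]
    {B : V →ₗ[K] V →ₛₗ[σ] K} {N : End K V} {b} (h : IsJordan N d b) (hB : Inv B N) {g : End K V}
    (hg : Commute g N) (i : ℕ) : fblk ((B ∘ₗ g).compl₂ g) b i =
      ((genMat b g).toSquareBlock d i)ᵀ * fblk B b i * ((genMat b g).toSquareBlock d i).map σ := by
  rw [h.fblk_comp_right (hB.comp_left hg) hg, h.fblk_comp_left hB hg]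

section SU

variable {q n : ℕ}

/-- The inclusion of `SU` in `GU`. -/
def suToGU (n : ℕ) (K : Type*) [Field K] (q : ℕ) : Cfsg.SU n K q →* Cfsg.GU n K q :=
  (SpecialLinearGroup.toGL.comp (Cfsg.SU n K q).subtype).codRestrict _ fun g => g.2

theorem suToGU_injective : Function.Injective (suToGU n K q) := fun _ _ h =>
  Subtype.ext (SpecialLinearGroup.toGL_injective (congrArg Subtype.val h))

/-- The elements of norm one. -/
def normOne (σ : K →+* K) : Subgroup Kˣ := (MonoidHom.id Kˣ * Units.map (σ : K →* K)).ker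

theorem mem_normOne {a : Kˣ} : a ∈ normOne σ ↔ (a : K) * σ a = 1 := by
  rw [normOne, MonoidHom.mem_ker, Units.ext_iff]; rfl

theorem card_normOne [Fintype K] (hK : Fintype.card K = q ^ 2) (hσ : IsInvol σ) :
    Nat.card (normOne σ) = q + 1 := by
  rw [← hσ.card_norm_one hK]
  exact Nat.card_congr
    { toFun := fun u => ⟨u.1, mem_normOne.1 u.2⟩
      invFun := fun c => ⟨Units.mk0 c.1 (left_ne_zero_of_mul_eq_one c.2), mem_normOne.2 c.2⟩
      left_inv := fun u => by ext; rfl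
      right_inv := fun c => rfl }

/-- The determinant on `GU`. -/
noncomputable def detGU (n : ℕ) (hσq : ∀ a, σ a = a ^ q) (hσ : IsInvol σ) :
    Cfsg.GU n K q →* normOne σ :=
  (GeneralLinearGroup.det.comp (Cfsg.GU n K q).subtype).codRestrict _ fun g => mem_normOne.2 (by
    have := congrArg det ((mem_GU_iff_adj hσq hσ _).1 g.2)
    rw [det_mul, det_adj, det_one, mul_comm] at this
    exact this)

theorem coe_detGU (hσq : ∀ a, σ a = a ^ q) (hσ : IsInvol σ) (g : Cfsg.GU n K q) :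
    ((detGU n hσq hσ g : Kˣ) : K) = g.1.1.det := rfl

theorem range_suToGU (hσq : ∀ a, σ a = a ^ q) (hσ : IsInvol σ) :
    (suToGU n K q).range = (detGU n hσq hσ).ker := by
  ext g
  constructor
  · rintro ⟨g, rfl⟩
    exact Subtype.ext (Units.ext g.1.2)
  · intro hg
    exact ⟨⟨⟨g.1.1, congrArg (fun a : normOne σ => (a.1 : K)) hg⟩, g.2⟩,
      Subtype.ext (Units.ext rfl)⟩

theorem detGU_surjective [Fintype K] (hσq : ∀ a, σ a = a ^ q) (hσ : IsInvol σ) (hn : 1 ≤ n) :
    Function.Surjective (detGU n hσq hσ) := fun a => by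
  refine ⟨guMk hσq (diagonal (Function.update 1 ⟨0, hn⟩ a.1)) ?_, Subtype.ext (Units.ext ?_)⟩
  · rw [diagonal_map (map_zero σ), diagonal_transpose, diagonal_mul_diagonal, ← diagonal_one]
    congr 1; ext i
    by_cases hi : i = ⟨0, hn⟩ <;> simp [hi, mem_normOne.1 a.2]
  · simp [coe_detGU, Finset.prod_update_of_mem]

/-- A unitary reflection. -/
theorem exists_reflection {V : Type*} [AddCommGroup V] [Module K V] [FiniteDimensional K V]
    {B : V →ₗ[K] V →ₛₗ[σ] K} (hB : IsHerm B) {w : V} (hw : B w w ≠ 0) {a : K}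
    (ha : a * σ a = 1) : ∃ r : End K V, (∀ x y, B (r x) (r y) = B x y) ∧ LinearMap.det r = a ∧
      ∀ N : End K V, N w = 0 → (∀ x, B (N x) w = 0) → Commute r N := by
  refine ⟨LinearMap.transvection (((a - 1) / B w w) • B.flip w) w, fun x y => ?_, ?_,
    fun N h1 h2 => LinearMap.ext fun x => ?_⟩
  · have h1 : σ (B w w) = B w w := (hB.herm w w).symm
    simp only [LinearMap.transvection.apply, LinearMap.smul_apply, LinearMap.flip_apply, map_add,
      LinearMap.map_smulₛₗ, LinearMap.add_apply, smul_eq_mul, RingHom.id_apply, map_mul, map_div₀,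
      map_sub, map_one, h1, ← hB.herm]
    field_simp
    linear_combination B x w * B w y * ha
  · simp [hw]
  · simp [LinearMap.transvection.apply, h1, h2]

end SU

end Cfsg.Agent.Lib.GL.Jordan
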