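import Mathlib
import Cfsg.Agent.Lib.GL.JordanGU
import Cfsg.Agent.Lib.GL.SpReal

/-!
Unipotent elements of symplectic groups: which Jordan types occur.
-/

set_option autoImplicit false

open Module Matrix Polynomial

namespace Cfsg.Agent.Lib.GL.Jordan

open Cfsg.Agent.Lib.GL.Sim Cfsg.Agent.Lib.GL.Alt Cfsg.Agent.Lib.GL.SpReal Cfsg.Agent.Lib.Forms
  Cfsg.Agent.Lib.GL.AltConj

variable {K : Type*} [Field K] {V : Type*} [AddCommGroup V] [Module K V]
variable {κ : Type*} [Fintype κ] [DecidableEq κ]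

theorem inv_sympBilin {m : ℕ} (u : Matrix.symplecticGroup (Fin m) K) :
    Inv (sympBilin m K) (toLin' ((u : Matrix (Fin m ⊕ Fin m) (Fin m ⊕ Fin m) K) - 1)) := by
  rw [map_sub, toLin'_one, ← End.one_eq_id, inv_iff_sub_one]
  intro x y
  simp only [toLin'_apply, sympBilin_apply, (mem_symplecticGroup_iff_sympForm _).1 u.2]

theorem IsJordan.isotropic {σ : K →+* K} {B : V →ₗ[K] V →ₛₗ[σ] K} {N : End K V} {n : ℕ} {b}
    (h : IsJordan N (fun _ : Unit => n) b) (hB : Inv B N) (W : Submodule K V)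
    (hW : ∀ v ∈ W, N v ∈ W) (hd : 2 * finrank K W ≤ n) {v w : V} (hv : v ∈ W) (hw : w ∈ W) :
    B v w = 0 := by
  have : FiniteDimensional K V := Module.Finite.of_basis b
  have h1 := h.eq_ker_pow W hW
  set a := finrank K W
  have h2 := h.eq_ker_pow (LinearMap.range (N ^ a)) (by
    rintro _ ⟨y, rfl⟩
    exact ⟨N y, by rw [← End.mul_apply, ← pow_succ, pow_succ', End.mul_apply]⟩)
  have h3 := (N ^ a).finrank_range_add_finrank_ker
  rw [← h1, h.finrank_eq] at h3
  simp only [Finset.univ_unique, Finset.sum_const, Finset.card_singleton, smul_eq_mul,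
    one_mul] at h3
  rw [h1] at hv hw
  obtain ⟨y, rfl⟩ : w ∈ LinearMap.range (N ^ a) := by
    rw [h2, LinearMap.mem_ker, show finrank K (LinearMap.range (N ^ a)) =
      (finrank K (LinearMap.range (N ^ a)) - a) + a by omega, pow_add, End.mul_apply,
      LinearMap.mem_ker.1 hw, map_zero]
  exact hB.pow_right_eq_zero y hv

/-- Odd blocks of a unipotent isometry of an alternating space have even multiplicity. -/
theorem IsJordan.even_card {ι : Type*} [Fintype ι] {d : ι → ℕ} {N : End K V} {b}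
    (h : IsJordan N d b) {B : LinearMap.BilinForm K V} (hB : Inv B N) (hA : B.IsAlt)
    (hn : B.Nondegenerate) {i : ℕ} (hi : Odd i) : Even (Fintype.card {k // d k = i}) := by
  classical
  simpa using (isSp_of_matrix (A := 1) (h.isUnit_fblk hB hn.1 i) (h.fblk_alt hB hA hi)
    (by simp)).even_finrank

theorem kerSeq_fromBlocks {κ' : Type*} [Fintype κ'] [DecidableEq κ'] (u : Matrix κ κ K)
    (u' : Matrix κ' κ' K) (j : ℕ) : kerSeq (fromBlocks u 0 0 u') j = kerSeq u j + kerSeq u' j := by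
  simp only [kerSeq_eq_kdM, kdM_fromBlocks]

theorem isSp_fromBlocks {κ' : Type*} [Fintype κ'] [DecidableEq κ'] {u : Matrix κ κ K}
    {u' : Matrix κ' κ' K} (h : IsSp (toLin' u)) (h' : IsSp (toLin' u')) :
    IsSp (toLin' (fromBlocks u 0 0 u')) :=
  (h.prodMap h').congr (LinearEquiv.sumArrowLequivProdArrow κ κ' K K).symm fun v => by
    ext (i | i) <;> simp [fromBlocks_mulVec] <;> rfl

theorem isSp_fromBlocks_inv {A A' S : Matrix κ κ K} (hA : A * A' = 1) (hS : Sᵀ = S) :
    IsSp (toLin' (fromBlocks A (A * S) 0 A'ᵀ)) := by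
  refine isSp_of_matrix (H := fromBlocks 0 1 (-1) 0) (IsUnit.of_mul_eq_one (fromBlocks 0 (-1) 1 0)
    (by simp [fromBlocks_multiply])) (fun v => ?_) ?_
  · obtain ⟨⟨x, y⟩, rfl⟩ := (Equiv.sumArrowEquivProdArrow κ κ K).symm.surjective v
    change Sum.elim x y ⬝ᵥ _ *ᵥ Sum.elim x y = 0
    simp [fromBlocks_mulVec, neg_mulVec, dotProduct_comm]
  · have h1 : Aᵀ * A'ᵀ = 1 := by rw [← transpose_mul, mul_eq_one_comm.1 hA, transpose_one]
    simp [fromBlocks_transpose, fromBlocks_multiply, h1, hS, mul_assoc, mul_eq_one_comm.1 hA,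
      ← mul_assoc A' A]

theorem kerSeq_of_pow {u : Matrix κ κ K} {p : ℕ} (h : (u - 1) ^ p = 0) :
    kerSeq u p = Fintype.card κ := by
  rw [kerSeq, ← toLin'_pow, h, map_zero, LinearMap.ker_zero]; simp

theorem pow_eq_zero_of_kerSeq {u : Matrix κ κ K} {p : ℕ} (h : kerSeq u p = Fintype.card κ) :
    (u - 1) ^ p = 0 := by
  have : LinearMap.ker (toLin' (u - 1) ^ p) = ⊤ :=
    Submodule.eq_top_of_finrank_eq (h.trans (by simp))
  rwa [LinearMap.ker_eq_top, ← toLin'_pow, LinearEquiv.map_eq_zero_iff] at this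

theorem kerSeq_transpose (u : Matrix κ κ K) : kerSeq uᵀ = kerSeq u := funext fun j => by
  rw [kerSeq_eq_kdM, kerSeq_eq_kdM, isConj_iff_kdM.1 (isConj_transpose u)]

theorem kerSeq_inv {u u' : Matrix κ κ K} (h : u * u' = 1) : kerSeq u' = kerSeq u := funext fun j => by
  have hc : Commute u' u := (mul_eq_one_comm.1 h).trans h.symm
  have h1 : (u' - 1) ^ j = (-u') ^ j * (u - 1) ^ j := by
    rw [← (hc.neg_left.sub_right (Commute.one_right _)).mul_pow]
    congr 1
    rw [mul_sub, neg_mul, mul_eq_one_comm.1 h, mul_one]; abel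
  have h2 : IsUnit (toLin' ((-u') ^ j)) :=
    isUnit_toLin'_iff'.2 ((IsUnit.of_mul_eq_one_right _ h).neg.pow j)
  rw [kerSeq, kerSeq, ← toLin'_pow, ← toLin'_pow, h1, toLin'_mul,
    LinearMap.ker_comp_of_ker_eq_bot _ ((LinearMap.isUnit_iff_ker_eq_bot _).1 h2)]

/-- The Jordan type `s` occurs for a unipotent isometry of some alternating space. -/
def SpType (K : Type*) [Field K] (s : Multiset ℕ) : Prop :=
  ∃ (n : ℕ) (u : Matrix (Fin n) (Fin n) K), IsSp (toLin' u) ∧ n = s.sum ∧ kerSeq u = minSum s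

theorem spType_of {s : Multiset ℕ} {u : Matrix κ κ K} (h : IsSp (toLin' u))
    (hs : Fintype.card κ = s.sum) (hu : kerSeq u = minSum s) : SpType K s := by
  let e := LinearEquiv.funCongrLeft K K (Fintype.equivFin κ).symm
  refine ⟨_, Isom.matOf e (toLin' u), h.congr e fun v => ?_, hs, funext fun j => ?_⟩
  · exact (Isom.matOf_mulVec e _ v).symm
  · rw [kerSeq_eq_kdM, Isom.kdM_matOf, ← hu, kerSeq_eq_kdM]; rfl

theorem SpType.add {s t : Multiset ℕ} (hs : SpType K s) (ht : SpType K t) : SpType K (s + t) := by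
  obtain ⟨n, u, h1, h2, h3⟩ := hs
  obtain ⟨n', u', h1', h2', h3'⟩ := ht
  exact spType_of (isSp_fromBlocks h1 h1') (by simp [h2, h2'])
    (funext fun j => by rw [kerSeq_fromBlocks, h3, h3']; simp [minSum])

theorem spType_zero : SpType K 0 :=
  spType_of (isSp_of_mem (1 : Matrix.symplecticGroup (Fin 0) K)) (by simp)
    (funext fun j => by simp [kerSeq, minSum, finrank_zero_of_subsingleton])

theorem exists_regular (n : ℕ) (hn : 0 < n) : ∃ u : GL (Fin n) K,
    ((u : Matrix (Fin n) (Fin n) K) - 1) ^ n = 0 ∧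
      kerSeq (u : Matrix (Fin n) (Fin n) K) = minSum {n} :=
  exists_kerSeq_eq (n := n) (by simp) ⟨{n}, by simpa using hn, by simp⟩ (by simp)

theorem spType_pair {i : ℕ} (hi : 0 < i) : SpType K {i, i} := by
  obtain ⟨u, -, h⟩ := exists_regular (K := K) i hi
  refine spType_of (isSp_fromBlocks_inv (S := 0) u.mul_inv (by simp)) (by simp) (funext fun j => ?_)
  rw [mul_zero, kerSeq_fromBlocks, kerSeq_transpose, kerSeq_inv u.mul_inv, h]
  simp [minSum]

theorem kerSeq_one_eq (u : Matrix κ κ K) :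
    kerSeq u 1 = finrank K (LinearMap.ker (toLin' (u - 1))) := by rw [kerSeq, pow_one]

theorem kerSeq_of_regular {u : Matrix κ κ K} {p : ℕ} (hp : (u - 1) ^ p = 0) (h : kerSeq u 1 = 1) :
    kerSeq u = minSum {Fintype.card κ} := by
  obtain ⟨b, hb⟩ := exists_isJordan_regular (N := toLin' (u - 1)) (p := p) (n := Fintype.card κ)
    (by rw [← toLin'_pow, hp, map_zero]) (by simp) (by rw [← kerSeq_one_eq, h])
  ext j
  simp [kerSeq, hb.finrank_ker_pow, minSum, -map_sub]

theorem fromBlocks_pow_eq_zero {κ' : Type*} [Fintype κ'] [DecidableEq κ'] {A : Matrix κ κ K}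
    {D : Matrix κ' κ' K} (C : Matrix κ κ' K) {p : ℕ} (hA : A ^ p = 0) (hD : D ^ p = 0) :
    fromBlocks A C 0 D ^ (p + p) = 0 := by
  have h : ∀ j, ∃ C', fromBlocks A C 0 D ^ j = fromBlocks (A ^ j) C' 0 (D ^ j) := fun j => by
    induction j with
    | zero => exact ⟨0, by simp⟩
    | succ j ih =>
      obtain ⟨C', ih⟩ := ih
      exact ⟨_, by rw [pow_succ, ih, fromBlocks_multiply]; simp [pow_succ]; rfl⟩
  obtain ⟨C', h⟩ := h p
  rw [pow_add, h, hA, hD, fromBlocks_multiply]; simp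

theorem spType_even {i : ℕ} (hi : 0 < i) : SpType K {2 * i} := by
  obtain ⟨u, h0, h⟩ := exists_regular (K := K) i hi
  have h1 : ∀ {A : Matrix (Fin i) (Fin i) K}, kerSeq A = minSum {i} →
      ∃ y, y ≠ 0 ∧ ∀ x, A *ᵥ x = x ↔ ∃ c : K, c • y = x := fun {A} hA => by
    have h2 := congrFun hA 1
    rw [kerSeq_one_eq, show minSum {i} 1 = 1 by simp [minSum]; omega, finrank_eq_one_iff'] at h2
    obtain ⟨⟨y, hy⟩, h3, h4⟩ := h2
    refine ⟨y, fun h => h3 (Subtype.ext h), fun x => ⟨fun hx => ?_, ?_⟩⟩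
    · obtain ⟨c, hc⟩ := h4 ⟨x, by simp [sub_mulVec, hx, -map_sub]⟩
      exact ⟨c, congrArg Subtype.val hc⟩
    · rintro ⟨c, rfl⟩
      rw [mulVec_smul]
      congr 1
      simpa [sub_mulVec, -map_sub, sub_eq_zero] using LinearMap.mem_ker.1 hy
  have h' : kerSeq (u⁻¹).1ᵀ = minSum {i} := by rw [kerSeq_transpose, kerSeq_inv u.mul_inv, h]
  obtain ⟨x₀, hx₀, hx⟩ := h1 h
  obtain ⟨y₀, hy₀, hy⟩ := h1 h'
  obtain ⟨a, ha⟩ := Function.ne_iff.1 hy₀
  have hs := isSp_fromBlocks_inv (S := single a a 1) u.mul_inv (by simp)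
  have h2 : ((u⁻¹).1ᵀ - 1) ^ i = 0 := pow_eq_zero_of_kerSeq (by rw [h']; simp [minSum])
  refine spType_of hs (by simp [two_mul]) ((kerSeq_of_regular (p := i + i) ?_ ?_).trans
    (by simp [two_mul]))
  · rw [← fromBlocks_one, ← fromBlocks_pow_eq_zero (u.1 * single a a 1) h0 h2]
    congr 1
    ext (i | i) (j | j) <;> simp [one_apply]
  · rw [kerSeq_one_eq, finrank_eq_one_iff']
    refine ⟨⟨Sum.elim x₀ 0, ?_⟩, fun h => hx₀ ?_, ?_⟩
    · simp [sub_mulVec, -map_sub, fromBlocks_mulVec, (hx x₀).2 ⟨1, one_smul _ _⟩]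
    · exact funext fun j => congrFun (congrArg Subtype.val h) (.inl j)
    · rintro ⟨v, hv⟩
      rw [LinearMap.mem_ker, toLin'_apply, sub_mulVec, one_mulVec, sub_eq_zero,
        ← Sum.elim_comp_inl_inr v, fromBlocks_mulVec] at hv
      have h3 := congrArg (· ∘ Sum.inl) hv
      have h4 := congrArg (· ∘ Sum.inr) hv
      simp only [Sum.elim_comp_inl, Sum.elim_comp_inr, zero_mulVec, zero_add] at h3 h4
      obtain ⟨c, hc⟩ := (hy _).1 h4
      have h5 : y₀ ᵥ* u.1 = y₀ := by
        conv_lhs => rw [← (hy y₀).2 ⟨1, one_smul _ _⟩, mulVec_transpose, vecMul_vecMul, u.inv_mul,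
          vecMul_one]
      have h6 := congrArg (y₀ ⬝ᵥ ·) h3
      simp only [dotProduct_add, dotProduct_mulVec, ← vecMul_vecMul, h5, add_eq_left, ← hc] at h6
      have h7 : c = 0 := by
        have ha' : y₀ a ≠ 0 := ha
        rw [← dotProduct_mulVec, single_mulVec] at h6
        change y₀ ⬝ᵥ Pi.single a _ = 0 at h6
        simpa [ha'] using h6
      rw [h7, zero_smul] at hc
      rw [← hc, mulVec_zero, add_zero] at h3
      obtain ⟨c', hc'⟩ := (hx _).1 h3
      refine ⟨c', Subtype.ext ?_⟩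
      ext (j | j)
      · exact congrFun hc' j
      · simpa using congrFun hc j

theorem spType_of_even (s : Multiset ℕ) (h0 : ∀ a ∈ s, 0 < a)
    (hs : ∀ j, Odd j → Even (s.count j)) : SpType K s := by
  induction s using Multiset.strongInductionOn with
  | ih s ih =>
    rcases s.empty_or_exists_mem with rfl | ⟨a, ha⟩
    · exact spType_zero
    obtain ⟨t, rfl⟩ := Multiset.exists_cons_of_mem ha
    rcases Nat.even_or_odd a with ⟨i, rfl⟩ | h
    · rw [← Multiset.singleton_add, ← two_mul]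
      refine (spType_even (by have := h0 _ ha; omega)).add (ih t (Multiset.lt_cons_self _ _)
        (fun a h => h0 a (Multiset.mem_cons_of_mem h)) fun j hj => ?_)
      have := hs j hj
      rwa [Multiset.count_cons_of_ne (by rintro rfl; obtain ⟨k, hk⟩ := hj; omega)] at this
    · have h1 := hs a h
      rw [Multiset.count_cons_self, Nat.even_add_one] at h1
      obtain ⟨t, rfl⟩ := Multiset.exists_cons_of_mem (s := t) (a := a)
        (Multiset.count_ne_zero.1 fun h => h1 (h ▸ Even.zero))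
      rw [show a ::ₘ a ::ₘ t = {a, a} + t by simp]
      refine (spType_pair (h0 _ ha)).add (ih t ((Multiset.lt_cons_self _ _).trans
        (Multiset.lt_cons_self _ _)) (fun a h => h0 a (by simp [h])) fun j hj => ?_)
      have := hs j hj
      simp only [Multiset.count_cons] at this
      split_ifs at this
      · rwa [add_assoc, Nat.even_add, iff_true_intro (show Even (1 + 1) by decide), iff_true] at this
      · simpa using this

theorem SpType.exists_mem {s : Multiset ℕ} (h : SpType K s) {m : ℕ} (hm : s.sum = 2 * m) :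
    ∃ u : Matrix.symplecticGroup (Fin m) K,
      kerSeq (u : Matrix (Fin m ⊕ Fin m) (Fin m ⊕ Fin m) K) = minSum s := by
  obtain ⟨n, u, h1, h2, h3⟩ := h
  obtain ⟨A, hA⟩ := h1.exists_symplectic (m := m) (by simp [h2, hm])
  exact ⟨A, funext fun j => by rw [kerSeq_eq_kdM, hA, ← h3, kerSeq_eq_kdM]; rfl⟩

end Cfsg.Agent.Lib.GL.Jordan
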