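import Mathlib
import Cfsg.Agent.Lib.GL.JordanSp
import Cfsg.Agent.Lib.Forms.QuadClassify2

/-!
Classification of the bilinear forms invariant under a unipotent endomorphism, in odd
characteristic.
-/

set_option autoImplicit false

open Module Matrix Polynomial

namespace Cfsg.Agent.Lib.GL.Jordan

open Cfsg.Agent.Lib.GL.Sim Cfsg.Agent.Lib.GL.Alt Cfsg.Agent.Lib.GL.SpReal Cfsg.Agent.Lib.Forms
  Cfsg.Agent.Lib.GL.AltConj

variable {K : Type*} [Field K] {V : Type*} [AddCommGroup V] [Module K V]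
variable {κ : Type*} [Fintype κ] [DecidableEq κ]

theorem exists_comp_eq [FiniteDimensional K V] {B : V →ₗ[K] V →ₗ[K] K}
    (hn : ∀ x, (∀ y, B x y = 0) → x = 0) (B' : V →ₗ[K] V →ₗ[K] K) : ∃ g : End K V, B' = B ∘ₗ g := by
  have h1 : Function.Injective B :=
    (injective_iff_map_eq_zero B).2 fun x hx => hn x fun y => by rw [hx]; rfl
  let e := LinearEquiv.ofInjectiveOfFinrankEq B h1 (Subspace.dual_finrank_eq).symm
  exact ⟨e.symm ∘ₗ B', LinearMap.ext fun x => (e.apply_symm_apply (B' x)).symm⟩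

theorem Inv.commute_of_comp {B : V →ₗ[K] V →ₗ[K] K} {N g : End K V} (hB : Inv B N)
    (hB' : Inv (B ∘ₗ g) N) (hn : ∀ x, (∀ y, B x y = 0) → x = 0) (hN : IsNilpotent N) :
    Commute g N := by
  refine LinearMap.ext fun x => sub_eq_zero.1 (hn _ fun y => ?_)
  obtain ⟨y, rfl⟩ := ((End.isUnit_iff _).1 hN.isUnit_one_add).2 y
  have h1 := hB' x y
  have h2 := hB (g x) y
  simp only [LinearMap.comp_apply, map_add g, map_add B, LinearMap.add_apply (B _), End.mul_apply,
    map_sub B, LinearMap.sub_apply] at h1 h2 ⊢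
  change B _ (y + N y) - B _ (y + N y) = 0
  linear_combination h1 - h2

theorem exists_sq_eq_of_isUnit_add {R : Type*} [Ring R] [Finite R] {h : R} (hu : IsUnit h)
    (h1 : ∀ k, IsUnit (h ^ k + 1)) : ∃ k, h ^ k * h ^ k = h := by
  obtain ⟨h, rfl⟩ := hu
  have h0 := orderOf_pos h
  rcases Nat.even_or_odd' (orderOf h) with ⟨k, hk | hk⟩
  · have h2 : h.1 ^ k - 1 = 0 := (h1 k).mul_right_eq_zero.1 (by
      rw [add_mul, mul_sub, ← pow_add, ← two_mul, ← hk, ← Units.val_pow_eq_pow_val,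
        pow_orderOf_eq_one]; simp)
    exact absurd (Units.ext (by simpa using sub_eq_zero.1 h2))
      (pow_ne_one_of_lt_orderOf (x := h) (n := k) (by omega) (by omega))
  · refine ⟨k + 1, ?_⟩
    rw [← pow_add, show k + 1 + (k + 1) = orderOf h + 1 by omega, pow_succ,
      ← Units.val_pow_eq_pow_val, pow_orderOf_eq_one]; simp

theorem exists_congr_alt {M M' : Matrix κ κ K} (hM : IsUnit M) (hM' : IsUnit M')
    (ha : ∀ v, v ⬝ᵥ M *ᵥ v = 0) (ha' : ∀ v, v ⬝ᵥ M' *ᵥ v = 0) :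
    ∃ T, IsUnit T ∧ Tᵀ * M * T = M' := by
  have hn : ∀ {M : Matrix κ κ K}, IsUnit M → (toBilin' M).Nondegenerate := fun h =>
    LinearMap.BilinForm.nondegenerate_toBilin'_of_det_ne_zero' _
      ((isUnit_iff_isUnit_det _).1 h).ne_zero
  obtain ⟨e, he⟩ := exists_isometry (B := toBilin' M') (fun v => by rw [toBilin'_apply', ha'])
    (hn hM') (B' := toBilin' M) (fun v => by rw [toBilin'_apply', ha]) (hn hM) rfl
  refine ⟨glOfEquiv e, Units.isUnit _, toBilin'.injective (LinearMap.ext₂ fun u v => ?_)⟩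
  rw [← he, toBilin'_apply', toBilin'_apply', ← glOfEquiv_mulVec, ← glOfEquiv_mulVec, mul_assoc,
    ← mulVec_mulVec, dotProduct_mulVec, vecMul_transpose, mulVec_mulVec]

theorem exists_congr_symm [Finite K] (h2 : (2 : K) ≠ 0) {M M' : Matrix κ κ K} (hM : IsUnit M)
    (hM' : IsUnit M') (hs : Mᵀ = M) (hs' : M'ᵀ = M') (hd : sqc M.det = sqc M'.det) :
    ∃ T, IsUnit T ∧ Tᵀ * M * T = M' := by
  have key : ∀ {M : Matrix κ κ K}, IsUnit M → Mᵀ = M → ∃ Q : QuadraticForm K (κ → K), Nondeg Q ∧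
      (∀ u v, QuadraticMap.polar Q u v = u ⬝ᵥ M *ᵥ v) ∧ disc Q = sqc M.det := fun {M} hM hs => by
    have h1 : ∀ u v, QuadraticMap.polar ((2⁻¹ : K) • (toBilin' M).toQuadraticMap) u v =
        u ⬝ᵥ M *ᵥ v := fun u v => by
      have h3 : v ⬝ᵥ M *ᵥ u = u ⬝ᵥ M *ᵥ v := by
        rw [dotProduct_mulVec, ← mulVec_transpose, hs, dotProduct_comm]
      simp only [QuadraticMap.polar, _root_.smul_apply,
        LinearMap.BilinMap.toQuadraticMap_apply, toBilin'_apply', mulVec_add, add_dotProduct,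
        dotProduct_add, h3, smul_eq_mul]
      field_simp; ring
    have h3 : Nondeg ((2⁻¹ : K) • (toBilin' M).toQuadraticMap) := nondeg_of fun x hx =>
      (LinearMap.BilinForm.nondegenerate_toBilin'_of_det_ne_zero' _
        ((isUnit_iff_isUnit_det _).1 hM).ne_zero).1 x fun y => by rw [toBilin'_apply', ← h1, hx]
    refine ⟨_, h3, h1, ?_⟩
    rw [h3.disc_eq (Pi.basisFun K κ)]
    congr 2
    ext i j
    rw [Forms.gram, of_apply, h1]; simp
  obtain ⟨Q, h3, h4, h5⟩ := key hM hs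
  obtain ⟨Q', h3', h4', h5'⟩ := key hM' hs'
  obtain ⟨e, he⟩ := h3'.isom_of_disc h2 h3 rfl (by rw [h5, h5', hd])
  refine ⟨glOfEquiv e, Units.isUnit _, toBilin'.injective (LinearMap.ext₂ fun u v => ?_)⟩
  rw [toBilin'_apply', toBilin'_apply', ← h4', ← polar_map_of_isom e he, h4, ← glOfEquiv_mulVec,
    ← glOfEquiv_mulVec, mul_assoc, ← mulVec_mulVec, dotProduct_mulVec, vecMul_transpose,
    mulVec_mulVec]

variable {ι : Type*} [Fintype ι] [DecidableEq ι] {d : ι → ℕ} {N : End K V}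
  {b : Basis (Σ k, Fin (d k)) K V} {B B' : V →ₗ[K] V →ₗ[K] K}

namespace IsJordan

variable (h : IsJordan N d b)
include h

theorem exists_blk_eq (T : ∀ i : ℕ, Matrix {k // d k = i} {k // d k = i} K) :
    ∃ g, Commute g N ∧ ∀ i, (genMat b g).toSquareBlock d i = T i := by
  obtain ⟨g, h1, h2⟩ := h.exists_blocks_eq (Finset.univ.image d) fun i => T i
  refine ⟨g, h1, fun i => ?_⟩
  by_cases hi : i ∈ Finset.univ.image d
  · exact congrFun h2 ⟨i, hi⟩
  · have : IsEmpty {k // d k = i} := ⟨fun k => hi (Finset.mem_image.2 ⟨k, by simp, k.2⟩)⟩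
    exact Subsingleton.elim _ _

theorem isUnit_iff_blk {g : End K V} (hg : Commute g N) :
    IsUnit g ↔ ∀ i, IsUnit ((genMat b g).toSquareBlock d i) := by
  rw [h.isUnit_iff_genMat hg, Jordan.isUnit_iff_blocks (h.genMat_blockTriangular hg)]

theorem nondeg_of_fblk (hB : Inv B N) (hB' : Inv B' N) (hn : ∀ x, (∀ y, B x y = 0) → x = 0)
    (hu : ∀ i, IsUnit (fblk B' b i)) (x : V) (hx : ∀ y, B' x y = 0) : x = 0 := by
  have : FiniteDimensional K V := Module.Finite.of_basis b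
  obtain ⟨g, rfl⟩ := exists_comp_eq hn B'
  have hg := hB.commute_of_comp hB' hn h.exists_pow_eq_zero
  have h1 : IsUnit g := (h.isUnit_iff_blk hg).2 fun i => by
    have := hu i
    rw [h.fblk_comp_left hB hg] at this
    simpa using isUnit_of_mul_isUnit_left this
  exact ((End.isUnit_iff _).1 h1).1 ((hn _ hx).trans (map_zero g).symm)

omit [Fintype ι] [DecidableEq ι] in
theorem fblk_flip (hB : Inv B N) (i : ℕ) : fblk B.flip b i = (-1) ^ (i - 1) • (fblk B b i)ᵀ := by
  ext k l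
  rw [Matrix.smul_apply, transpose_apply, h.fblk_swap hB, fblk_apply, LinearMap.flip_apply]
  simp [← mul_assoc, ← mul_pow]

omit [Fintype ι] [DecidableEq ι] in
theorem fblk_transpose (hB : Inv B N) {ε : K} (hε : ∀ x y, B y x = ε * B x y) (i : ℕ) :
    (fblk B b i)ᵀ = (ε * (-1) ^ (i - 1)) • fblk B b i := by
  ext k l
  rw [Matrix.smul_apply, transpose_apply, h.fblk_swap hB, fblk_apply, hε, smul_eq_mul]; ring

/-- Invariant `ε`-symmetric forms with prescribed block forms. -/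
theorem exists_form (h2 : (2 : K) ≠ 0) (hB : Inv B N) (hn : ∀ x, (∀ y, B x y = 0) → x = 0) {ε : K}
    (hε : ε * ε = 1) (M : ∀ i : ℕ, Matrix {k // d k = i} {k // d k = i} K) (hM : ∀ i, IsUnit (M i))
    (hM' : ∀ i, (M i)ᵀ = (ε * (-1) ^ (i - 1)) • M i) :
    ∃ B' : V →ₗ[K] V →ₗ[K] K, Inv B' N ∧ (∀ x, (∀ y, B' x y = 0) → x = 0) ∧
      (∀ x y, B' y x = ε * B' x y) ∧ ∀ i, fblk B' b i = M i := by
  have hG := h.isUnit_fblk hB hn
  obtain ⟨g, hg, hg'⟩ := h.exists_blk_eq fun i => (M i * ((hG i).unit⁻¹).1)ᵀ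
  have h1 : ∀ i, fblk (B ∘ₗ g) b i = M i := fun i => by
    rw [h.fblk_comp_left hB hg, hg', transpose_transpose, mul_assoc, IsUnit.val_inv_mul, mul_one]
  have h3 := hB.comp_left hg
  generalize B ∘ₗ g = C at h1 h3
  have h4 : Inv ((2⁻¹ : K) • (C + ε • C.flip)) N := fun x y => by
    simp only [LinearMap.smul_apply, LinearMap.add_apply, LinearMap.flip_apply, h3 x y, h3 y x]
  have h5 : ∀ i, fblk ((2⁻¹ : K) • (C + ε • C.flip)) b i = M i := fun i => by
    have h6 := h.fblk_flip h3 i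
    rw [h1, hM'] at h6
    ext k l
    have h7 := congrFun (congrFun h6 k) l
    have h8 := congrFun (congrFun (h1 i) k) l
    rw [fblk_apply] at h7 h8 ⊢
    simp only [LinearMap.smul_apply, LinearMap.add_apply, h7, h8, Matrix.smul_apply, smul_eq_mul,
      zsmul_eq_mul, Int.cast_pow, Int.cast_neg, Int.cast_one]
    have h9 : ((-1 : K) ^ (i - 1)) * (-1) ^ (i - 1) = 1 := by rw [← mul_pow]; simp
    field_simp
    linear_combination (M i k l * ε * ε) * h9 + M i k l * hε
  refine ⟨_, h4, h.nondeg_of_fblk hB h4 hn fun i => h5 i ▸ hM i, fun x y => ?_, h5⟩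
  simp only [LinearMap.smul_apply, LinearMap.add_apply, LinearMap.flip_apply, smul_eq_mul]
  linear_combination (-2⁻¹ * C y x) * hε

/-- Invariant `ε`-symmetric forms with the same block forms are equivalent under the
centraliser. -/
theorem exists_isometry_of_fblk [Finite K] (h2 : (2 : K) ≠ 0) (hB : Inv B N) (hB' : Inv B' N)
    (hn : ∀ x, (∀ y, B x y = 0) → x = 0) {ε : K} (hε : ∀ x y, B y x = ε * B x y)
    (hε' : ∀ x y, B' y x = ε * B' x y) (hf : ∀ i, fblk B' b i = fblk B b i) :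
    ∃ g, Commute g N ∧ IsUnit g ∧ ∀ x y, B (g x) (g y) = B' x y := by
  have : FiniteDimensional K V := Module.Finite.of_basis b
  have : Finite V := Module.finite_of_finite K
  have : Finite (End K V) := Finite.of_injective _ DFunLike.coe_injective
  obtain ⟨g, rfl⟩ := exists_comp_eq hn B'
  have hg := hB.commute_of_comp hB' hn h.exists_pow_eq_zero
  have h1 : ∀ i, (genMat b g).toSquareBlock d i = 1 := fun i => by
    have := hf i
    rw [h.fblk_comp_left hB hg, (h.isUnit_fblk hB hn i).mul_eq_right] at this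
    simpa using congrArg transpose this
  have h3 : ∀ k i, (genMat b (g ^ k)).toSquareBlock d i = 1 := fun k i => by
    induction k with
    | zero => ext; simp [h.genMat_one, toSquareBlock_def, one_apply, Subtype.ext_iff]
    | succ k ih =>
      rw [pow_succ, h.genMat_mul (hg.pow_left k), toSquareBlock_mul
        (h.genMat_blockTriangular (hg.pow_left k)) (h.genMat_blockTriangular hg), ih, h1, one_mul]
  have hu : IsUnit g := (h.isUnit_iff_blk hg).2 fun i => h1 i ▸ isUnit_one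
  obtain ⟨k, hk⟩ := exists_sq_eq_of_isUnit_add hu fun k =>
    (h.isUnit_iff_blk ((hg.pow_left k).add_left (Commute.one_left N))).2 fun i => by
      have : (genMat b (g ^ k + 1)).toSquareBlock d i = (2 : K) • 1 := by
        rw [two_smul]
        nth_rw 1 [← h3 k i]
        rw [← h3 0 i, map_add, pow_zero]; rfl
      rw [this, isUnit_iff_isUnit_det]; simp [h2]
  have h4 : ∀ x y, B (g x) y = B x (g y) := fun x y => by
    have := hε' y x
    simp only [LinearMap.comp_apply] at this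
    linear_combination this - hε (g y) x
  have h5 : ∀ j x y, B ((g ^ j) x) y = B x ((g ^ j) y) := fun j => by
    induction j with
    | zero => simp
    | succ j ih => intro x y; rw [pow_succ, End.mul_apply, ih, h4, ← End.mul_apply, ← pow_succ', pow_succ]
  exact ⟨g ^ k, hg.pow_left k, hu.pow k, fun x y => by
    rw [← h5, ← End.mul_apply, hk, LinearMap.comp_apply]⟩

end IsJordan

/-- The discriminant signs of the block forms of even size. -/
noncomputable def sgn (B : V →ₗ[K] V →ₗ[K] K) (b : Basis (Σ k, Fin (d k)) K V) (i : ℕ) : ℤˣ :=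
  if Even i then sqc (fblk B b i).det else 1

theorem neg_one_pow_pred_of_even {i : ℕ} (hi : Even i) (h0 : 0 < i) : (-1 : K) ^ (i - 1) = -1 :=
  Odd.neg_one_pow (by obtain ⟨j, hj⟩ := hi; exact ⟨j - 1, by omega⟩)

theorem neg_one_pow_pred_of_odd {i : ℕ} (hi : ¬ Even i) : (-1 : K) ^ (i - 1) = 1 :=
  Even.neg_one_pow (by obtain ⟨j, hj⟩ := Nat.not_even_iff_odd.1 hi; exact ⟨j, by omega⟩)

omit [Fintype ι] [DecidableEq ι] in
theorem IsJordan.fblk_symm_of_even (h : IsJordan N d b) (hB : Inv B N) (hA : ∀ x, B x x = 0) {i : ℕ}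
    (hi : Even i) : (fblk B b i)ᵀ = fblk B b i := by
  rcases Nat.eq_zero_or_pos i with rfl | h0
  · ext k; exact absurd k.2 (h.pos k).ne'
  · rw [h.fblk_transpose hB (ε := -1) (fun x y => by rw [← LinearMap.IsAlt.neg hA]; simp),
      neg_one_pow_pred_of_even hi h0]; simp

theorem IsJordan.exists_isometry_iff_sgn [Finite K] (h2 : (2 : K) ≠ 0) (h : IsJordan N d b)
    {N' : End K V} {b'} (h' : IsJordan N' d b') (hB : Inv B N) (hB' : Inv B' N')
    (hA : ∀ x, B x x = 0) (hA' : ∀ x, B' x x = 0) (hn : ∀ x, (∀ y, B x y = 0) → x = 0)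
    (hn' : ∀ x, (∀ y, B' x y = 0) → x = 0) :
    (∃ g : End K V, IsUnit g ∧ g * N = N' * g ∧ ∀ x y, B' (g x) (g y) = B x y) ↔
      sgn B b = sgn B' b' := by
  have : FiniteDimensional K V := Module.Finite.of_basis b
  let e := b.equiv b' (Equiv.refl _)
  have he : ∀ k a, e (bb b k a) = bb b' k a := fun k a => by
    by_cases ha : a < d k
    · simp [bb, ha, e]
    · simp [bb, ha]
  have he' : e.toLinearMap * N = N' * e.toLinearMap := b.ext fun ⟨k, a⟩ => by
    simp [← bb_fin, he, h.step, h'.step]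
  have he'' : ∀ v, e (N v) = N' (e v) := LinearMap.congr_fun he'
  let C := (B' ∘ₗ e.toLinearMap).compl₂ e.toLinearMap
  have hC : Inv C N := fun x y => by simpa [C, he''] using hB' (e x) (e y)
  have hCf : ∀ i, fblk C b i = fblk B' b' i := fun i => by ext; simp [fblk_apply, C, he]
  have hCn : ∀ x, (∀ y, C x y = 0) → x = 0 := fun x hx =>
    e.map_eq_zero_iff.1 (hn' _ fun y => by simpa [C] using hx (e.symm y))
  have hCA : ∀ x, C x x = 0 := fun x => hA' _
  have hCu := h.isUnit_fblk hC hCn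
  constructor
  · rintro ⟨g, h1, h3, h4⟩
    let c : End K V := e.symm.toLinearMap * g
    have h5 : Commute c N := LinearMap.ext fun v => by
      simp only [c, End.mul_apply, LinearEquiv.coe_coe, LinearEquiv.symm_apply_eq, he'',
        e.apply_symm_apply]
      exact LinearMap.congr_fun h3 v
    have h6 : (C ∘ₗ c).compl₂ c = B := LinearMap.ext₂ fun x y => by simp [C, c, h4]
    ext1 i
    rw [sgn, sgn, ← hCf, ← h6, h.fblk_isometry hC h5]
    have h7 := ((isUnit_iff_isUnit_det _).1 ((h.isUnit_iff_blk h5).1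
      (((End.isUnit_iff _).2 e.symm.bijective).mul h1) i)).ne_zero
    have h8 := ((isUnit_iff_isUnit_det _).1 (hCu i)).ne_zero
    rw [RingHom.coe_id, Matrix.map_id, det_mul, det_mul, det_transpose, mul_right_comm,
      sqc_mul (mul_ne_zero h7 h7) h8, sqc_mul_self, one_mul]
  · intro hs
    have hT : ∀ i, ∃ T, IsUnit T ∧ Tᵀ * fblk C b i * T = fblk B b i := fun i => by
      by_cases hi : Even i
      · refine exists_congr_symm h2 (hCu i) (h.isUnit_fblk hB hn i) (h.fblk_symm_of_even hC hCA hi)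
          (h.fblk_symm_of_even hB hA hi) ?_
        have := congrFun hs i
        rw [sgn, sgn, if_pos hi, if_pos hi] at this
        rw [hCf, this]
      · exact exists_congr_alt (hCu i) (h.isUnit_fblk hB hn i)
          (h.fblk_alt hC hCA (Nat.not_even_iff_odd.1 hi)) (h.fblk_alt hB hA (Nat.not_even_iff_odd.1 hi))
    choose T hT hT' using hT
    obtain ⟨g, h1, h3⟩ := h.exists_blk_eq T
    have h4 : IsUnit g := (h.isUnit_iff_blk h1).2 fun i => h3 i ▸ hT i
    have h4' := (End.isUnit_iff _).1 h4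
    obtain ⟨g', h5, h6, h7⟩ := h.exists_isometry_of_fblk h2 ((hC.comp_left h1).comp_right h1) hB
      (fun x hx => h4'.1 ((hCn _ fun y => by
        obtain ⟨y, rfl⟩ := h4'.2 y; exact hx y).trans (map_zero g).symm)) (ε := -1)
      (fun x y => by rw [neg_one_mul]; exact (LinearMap.IsAlt.neg hCA _ _).symm)
      (fun x y => by rw [neg_one_mul]; exact (LinearMap.IsAlt.neg hA _ _).symm)
      (fun i => by rw [h.fblk_isometry hC h1, h3, ← hT']; rfl)
    refine ⟨e.toLinearMap * g * g', (((End.isUnit_iff _).2 e.bijective).mul h4).mul h6, ?_, h7⟩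
    rw [mul_assoc, h5.eq, mul_assoc, ← mul_assoc g, h1.eq, ← mul_assoc, ← mul_assoc, he']
    simp only [mul_assoc]

theorem IsJordan.exists_sgn_eq [Finite K] (h2 : (2 : K) ≠ 0) (h : IsJordan N d b) (hB : Inv B N)
    (hA : ∀ x, B x x = 0) (hn : ∀ x, (∀ y, B x y = 0) → x = 0) (ε : ℕ → ℤˣ)
    (hε : ∀ i, ¬ (Even i ∧ ∃ k, d k = i) → ε i = 1) :
    ∃ B' : V →ₗ[K] V →ₗ[K] K, Inv B' N ∧ (∀ x, B' x x = 0) ∧ (∀ x, (∀ y, B' x y = 0) → x = 0) ∧
      sgn B' b = ε := by
  have hM : ∀ i, ∃ M : Matrix {k // d k = i} {k // d k = i} K, IsUnit M ∧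
      Mᵀ = (-1 * (-1) ^ (i - 1) : K) • M ∧ (if Even i then sqc M.det else 1) = ε i := fun i => by
    by_cases hi : Even i ∧ ∃ k, d k = i
    · obtain ⟨hi, k, hk⟩ := hi
      obtain ⟨c, hc0, hc⟩ : ∃ c : K, c ≠ 0 ∧ sqc c = ε i := by
        rcases Int.units_eq_one_or (ε i) with h | h
        · exact ⟨1, one_ne_zero, sqc_one.trans h.symm⟩
        · obtain ⟨c, hc⟩ := FiniteField.exists_nonsquare (F := K)
            (fun h => h2 (by simpa [h] using (ringChar.spec K 2).2))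
          exact ⟨c, fun h => hc (h ▸ IsSquare.zero), (sqc_eq_neg_one_iff.2 hc).trans h.symm⟩
      have hd : (diagonal (Function.update (1 : {k // d k = i} → K) ⟨k, hk⟩ c)).det = c := by
        simp [Finset.prod_update_of_mem]
      refine ⟨_, (isUnit_iff_isUnit_det _).2 (hd.symm ▸ hc0.isUnit), ?_, by rw [if_pos hi, hd, hc]⟩
      rw [neg_one_pow_pred_of_even hi (hk ▸ h.pos k)]; simp
    · refine ⟨_, h.isUnit_fblk hB hn i, h.fblk_transpose hB
        (fun x y => by rw [← LinearMap.IsAlt.neg hA]; simp) i, ?_⟩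
      rw [hε i hi]
      split_ifs with h3
      · have : IsEmpty {k // d k = i} := ⟨fun k => hi ⟨h3, k.1, k.2⟩⟩
        rw [det_isEmpty, sqc_one]
      · rfl
  choose M h3 h4 h5 using hM
  obtain ⟨B', h6, h7, h8, h9⟩ := h.exists_form h2 hB hn (by simp) M h3 h4
  refine ⟨B', h6, fun x => ?_, h7, funext fun i => by rw [sgn, h9, h5]⟩
  have := h8 x x
  exact (mul_eq_zero.1 (show 2 * B' x x = 0 by linear_combination this)).resolve_left h2

theorem sgn_eq_one (B : V →ₗ[K] V →ₗ[K] K) {i : ℕ} (hi : ¬ (Even i ∧ ∃ k, d k = i)) :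
    sgn B b i = 1 := by
  rw [sgn]
  split_ifs with h3
  · have : IsEmpty {k // d k = i} := ⟨fun k => hi ⟨h3, k.1, k.2⟩⟩
    rw [det_isEmpty, sqc_one]
  · rfl

section Sp

variable [Finite K] {m : ℕ}

theorem isConj_sp_iff_sgn (h2 : (2 : K) ≠ 0) {u u' : Matrix.symplecticGroup (Fin m) K} {b b'}
    (h : IsJordan (toLin' ((u : Matrix (Fin m ⊕ Fin m) (Fin m ⊕ Fin m) K) - 1)) d b)
    (h' : IsJordan (toLin' ((u' : Matrix (Fin m ⊕ Fin m) (Fin m ⊕ Fin m) K) - 1)) d b') :
    IsConj u u' ↔ sgn (sympBilin m K) b = sgn (sympBilin m K) b' := by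
  rw [← h.exists_isometry_iff_sgn h2 h' (inv_sympBilin u) (inv_sympBilin u') (sympBilin_isAlt m)
    (sympBilin_isAlt m) (sympBilin_nondegenerate m).1 (sympBilin_nondegenerate m).1, isConj_iff]
  constructor
  · rintro ⟨g, rfl⟩
    refine ⟨toLin' g.1, isUnit_toLin'_iff'.2 ((Group.isUnit g).map (Submonoid.subtype _)), ?_,
      fun x y => by
        simp only [toLin'_apply, sympBilin_apply, (mem_symplecticGroup_iff_sympForm _).1 g.2]⟩
    rw [End.mul_eq_comp, End.mul_eq_comp, ← toLin'_mul, ← toLin'_mul, mul_sub, sub_mul,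
      ← Submonoid.coe_mul, ← Submonoid.coe_mul]
    simp
  · rintro ⟨g, -, h3, h4⟩
    obtain ⟨g, rfl⟩ := toLin'.surjective g
    refine ⟨⟨g, (mem_symplecticGroup_iff_sympForm _).2 fun x y => by
      simpa only [toLin'_apply, sympBilin_apply] using h4 x y⟩, ?_⟩
    rw [End.mul_eq_comp, End.mul_eq_comp, ← toLin'_mul, ← toLin'_mul, toLin'.injective.eq_iff,
      mul_sub, sub_mul, mul_one, one_mul, sub_left_inj] at h3
    exact mul_inv_eq_iff_eq_mul.2 (Subtype.ext h3)

theorem exists_sp_sgn_eq (h2 : (2 : K) ≠ 0) {u : Matrix.symplecticGroup (Fin m) K} {b}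
    (h : IsJordan (toLin' ((u : Matrix (Fin m ⊕ Fin m) (Fin m ⊕ Fin m) K) - 1)) d b) (ε : ℕ → ℤˣ)
    (hε : ∀ i, ¬ (Even i ∧ ∃ k, d k = i) → ε i = 1) :
    ∃ (u' : Matrix.symplecticGroup (Fin m) K) (b' : _),
      IsJordan (toLin' ((u' : Matrix (Fin m ⊕ Fin m) (Fin m ⊕ Fin m) K) - 1)) d b' ∧
        sgn (sympBilin m K) b' = ε := by
  obtain ⟨B, h3, h4, h5, rfl⟩ := h.exists_sgn_eq h2 (inv_sympBilin u) (sympBilin_isAlt m)
    (sympBilin_nondegenerate m).1 ε hε
  obtain ⟨e, he⟩ := exists_equiv_sympForm_of_finrank (B := B) h4 (nondegenerate_of_isAlt h4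
    fun v hv => h5 v fun y => by rw [← LinearMap.IsAlt.neg h4, hv, neg_zero]) (m := m)
    (by simp [two_mul])
  rw [map_sub, toLin'_one, ← End.one_eq_id, inv_iff_sub_one] at h3
  refine ⟨⟨_, (Isom.matOf_mem_symplecticGroup_iff e he _).2 h3⟩, b.map e, h.congr e fun v => ?_, ?_⟩
  · simp [Isom.matOf_mulVec]
  · have he' : ∀ k a, bb (b.map e) k a = e (bb b k a) := fun k a => by
      by_cases ha : a < d k <;> simp [bb, ha]
    ext1 i
    have : fblk (sympBilin m K) (b.map e) i = fblk B b i := by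
      ext; simp [fblk_apply, he', he, sympBilin_apply]
    rw [sgn, sgn, this]

omit [DecidableEq ι] in
theorem count_partOf {n : ℕ} (hd : ∀ k, 0 < d k) (hn : ∑ k, d k = n) (j : ℕ) :
    (partOf d hd hn).parts.count j = Fintype.card {k // d k = j} := by
  simp only [Fintype.card_subtype, partOf, Multiset.count_map, eq_comm, Finset.card, Finset.filter]

theorem minSum_sum (s : Multiset ℕ) : minSum s s.sum = s.sum := by
  rw [minSum, Multiset.map_congr rfl fun a ha => min_eq_right (Multiset.single_le_sum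
    (fun _ _ => Nat.zero_le _) a ha), Multiset.map_id']

theorem minSum_eq_sum_iff (s : Multiset ℕ) (p : ℕ) : minSum s p = s.sum ↔ ∀ a ∈ s, a ≤ p := by
  refine ⟨fun h a ha => ?_, fun h => by
    rw [minSum, Multiset.map_congr rfl fun a ha => min_eq_right (h a ha), Multiset.map_id']⟩
  by_contra h1
  refine absurd h (ne_of_lt ?_)
  conv_rhs => rw [← Multiset.map_id' s]
  exact Multiset.sum_lt_sum (fun _ _ => min_le_right _ _) ⟨a, ha, by omega⟩

/-- A complete invariant for the unipotent classes of `Sp` in odd characteristic. -/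
theorem exists_sp_invariant (h2 : (2 : K) ≠ 0) (m : ℕ) :
    ∃ Φ : Matrix.symplecticGroup (Fin m) K → Nat.Partition (2 * m) × (ℕ → ℤˣ),
      (∀ u, IsNilpotent (u.1 - 1) → kerSeq u.1 = minSum (Φ u).1.parts) ∧
      (∀ u u', IsNilpotent (u.1 - 1) → IsNilpotent (u'.1 - 1) → (IsConj u u' ↔ Φ u = Φ u')) ∧
      ∀ x, (∃ u, IsNilpotent (u.1 - 1) ∧ Φ u = x) ↔ (∀ j, Odd j → Even (x.1.parts.count j)) ∧
        ∀ i, ¬ (Even i ∧ i ∈ x.1.parts) → x.2 i = 1 := by
  choose t d hd hn hp using exists_partOf_eq (n := 2 * m)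
  have h0 : ∀ (u : Matrix.symplecticGroup (Fin m) K) μ, (∃ b, IsJordan (toLin' (u.1 - 1)) (d μ) b) ↔
      kerSeq u.1 = minSum μ.parts := fun u μ => by
    constructor
    · rintro ⟨b, hb⟩
      ext j; rw [← hp μ, minSum_partOf, kerSeq, hb.finrank_ker_pow]
    · intro h
      exact exists_isJordan (hd μ) (by simp [hn, two_mul]) fun j => by
        rw [← minSum_partOf _ (hd μ) (hn μ), hp, ← h, kerSeq]
  have hmem : ∀ μ i, i ∈ μ.parts ↔ ∃ k, d μ k = i := fun μ i => by
    conv_lhs => rw [← hp μ]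
    simp [partOf]
  have h1 : ∀ u : Matrix.symplecticGroup (Fin m) K, ∃ x : Nat.Partition (2 * m) × (ℕ → ℤˣ),
      IsNilpotent (u.1 - 1) → ∃ b, IsJordan (toLin' (u.1 - 1)) (d x.1) b ∧
        sgn (sympBilin m K) b = x.2 := fun u => by
    by_cases hu : IsNilpotent (u.1 - 1)
    · obtain ⟨p, hu⟩ := hu
      obtain ⟨μ, -, h⟩ := exists_partition_kerSeq (n := 2 * m) (by simp [two_mul]) hu
      obtain ⟨b, hb⟩ := (h0 u μ).2 h.symm
      exact ⟨(μ, sgn (sympBilin m K) b), fun _ => ⟨b, hb, rfl⟩⟩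
    · exact ⟨default, fun h => absurd h hu⟩
  choose Φ hΦ using h1
  have h3 : ∀ u, IsNilpotent (u.1 - 1) → kerSeq u.1 = minSum (Φ u).1.parts := fun u hu =>
    (h0 u _).1 ((hΦ u hu).imp fun _ h => h.1)
  have h4 : ∀ u μ b, IsJordan (toLin' (u.1 - 1)) (d μ) b → Φ u = (μ, sgn (sympBilin m K) b) := by
    intro u μ b hb
    have hu : IsNilpotent (u.1 - 1) := hb.exists_pow_eq_zero.imp fun j hj => by
      rwa [← toLin'_pow, LinearEquiv.map_eq_zero_iff] at hj
    obtain rfl : (Φ u).1 = μ := minSum_parts_injective ((h3 u hu).symm.trans ((h0 u μ).1 ⟨b, hb⟩))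
    obtain ⟨b', hb', h⟩ := hΦ u hu
    exact Prod.ext rfl (h.symm.trans ((isConj_sp_iff_sgn h2 hb' hb).1 (IsConj.refl u)))
  refine ⟨Φ, h3, fun u u' hu hu' => ?_, fun ⟨μ, ε⟩ => ⟨?_, fun ⟨h5, h6⟩ => ?_⟩⟩
  · obtain ⟨b, hb, h⟩ := hΦ u hu
    constructor
    · intro hc
      obtain ⟨b', hb'⟩ := hb.of_isConj ((Submonoid.subtype _).map_isConj hc)
      rw [h4 _ _ _ hb', ← (isConj_sp_iff_sgn h2 hb hb').1 hc, h]
    · intro hc
      obtain ⟨b', hb'⟩ := (h0 u' (Φ u).1).2 (hc ▸ h3 u' hu')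
      rw [isConj_sp_iff_sgn h2 hb hb', h]
      exact congrArg Prod.snd (hc.trans (h4 _ _ _ hb'))
  · rintro ⟨u, hu, h⟩
    obtain ⟨b, hb, h'⟩ := hΦ u hu
    rw [← h]
    refine ⟨fun j hj => ?_, fun i hi => h' ▸ sgn_eq_one _ (by rwa [← hmem])⟩
    rw [← hp (Φ u).1, count_partOf]
    exact hb.even_card (inv_sympBilin u) (sympBilin_isAlt m) (sympBilin_nondegenerate m) hj
  · obtain ⟨u, hu⟩ := (spType_of_even (K := K) μ.parts (fun _ => μ.parts_pos) h5).exists_mem
      μ.parts_sum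
    obtain ⟨b, hb⟩ := (h0 u μ).2 hu
    obtain ⟨u', b', hb', h⟩ := exists_sp_sgn_eq h2 hb ε fun i hi => h6 i (by rwa [hmem])
    exact ⟨u', hb'.exists_pow_eq_zero.imp fun j hj => by
      rwa [← toLin'_pow, LinearEquiv.map_eq_zero_iff] at hj, by rw [h4 _ _ _ hb', h]⟩

end Sp

theorem card_signs (S : Finset ℕ) : Nat.card {ε : ℕ → ℤˣ // ∀ i, i ∉ S → ε i = 1} = 2 ^ S.card := by
  classical
  rw [Nat.card_congr (α := {ε : ℕ → ℤˣ // ∀ i, i ∉ S → ε i = 1}) (β := S → ℤˣ)
    { toFun := fun ε i => ε.1 i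
      invFun := fun f => ⟨fun i => if h : i ∈ S then f ⟨i, h⟩ else 1, fun i hi => dif_neg hi⟩
      left_inv := fun ε => Subtype.ext (_root_.funext fun i => by
        by_cases h : i ∈ S <;> simp [h, ε.2 i])
      right_inv := fun f => _root_.funext fun i => by simp }]
  simp

theorem card_signed {α : Type*} [Fintype α] (A : α → Prop) [DecidablePred A] (S : α → Finset ℕ) :
    Nat.card {x : α × (ℕ → ℤˣ) // A x.1 ∧ ∀ i, i ∉ S x.1 → x.2 i = 1} =
      ∑ a ∈ Finset.univ.filter A, 2 ^ (S a).card := by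
  have : ∀ a, Finite {ε : ℕ → ℤˣ // ∀ i, i ∉ S a → ε i = 1} := fun a =>
    Nat.finite_of_card_ne_zero (by rw [card_signs]; positivity)
  rw [Nat.card_congr (α := {x : α × (ℕ → ℤˣ) // A x.1 ∧ ∀ i, i ∉ S x.1 → x.2 i = 1})
    (β := Σ a : {a // A a}, {ε : ℕ → ℤˣ // ∀ i, i ∉ S a → ε i = 1})
    { toFun := fun x => ⟨⟨x.1.1, x.2.1⟩, x.1.2, x.2.2⟩
      invFun := fun x => ⟨(x.1.1, x.2.1), x.1.2, x.2.2⟩
      left_inv := fun _ => rfl
      right_inv := fun _ => rfl }, Nat.card_sigma]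
  simp only [card_signs]
  exact (Finset.sum_subtype _ (by simp) fun a => 2 ^ (S a).card).symm

end Cfsg.Agent.Lib.GL.Jordan
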