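import Mathlib
import Cfsg.Agent.Lib.GL.JordanSp2

/-!
The centraliser of a regular unipotent element of a symplectic group in odd characteristic.
-/

set_option autoImplicit false

open Module Matrix Polynomial

namespace Cfsg.Agent.Lib.GL.Jordan

open Cfsg.Agent.Lib.GL.AltConj

variable {K : Type*} [Field K] {V : Type*} [AddCommGroup V] [Module K V]

/-- The `ε`-self-adjoint endomorphisms commuting with `N`. -/
def selfAdj (B : V →ₗ[K] V →ₗ[K] K) (N : End K V) (ε : K) : Submodule K (End K V) where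
  carrier := {g | Commute g N ∧ ∀ x y, B (g x) y = ε * B x (g y)}
  add_mem' ha hb := ⟨ha.1.add_left hb.1, fun x y => by simp [ha.2, hb.2, mul_add]⟩
  zero_mem' := ⟨Commute.zero_left N, by simp⟩
  smul_mem' c _ h := ⟨h.1.smul_left c, fun x y => by simp [h.2]; ring⟩

variable {B : V →ₗ[K] V →ₗ[K] K} {N : End K V}

theorem selfAdj_disjoint (h2 : (2 : K) ≠ 0) (hn : ∀ x, (∀ y, B x y = 0) → x = 0) {g : End K V}
    (h : g ∈ selfAdj B N 1) (h' : g ∈ selfAdj B N (-1)) : g = 0 :=
  LinearMap.ext fun x => hn _ fun y =>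
    (mul_eq_zero.1 (by linear_combination h.2 x y + h'.2 x y)).resolve_left h2

theorem selfAdj_sup [FiniteDimensional K V] (h2 : (2 : K) ≠ 0) (hB : Inv B N)
    (hA : ∀ x, B x x = 0) (hn : ∀ x, (∀ y, B x y = 0) → x = 0) (hN : IsNilpotent N) :
    selfAdj B N 1 ⊔ selfAdj B N (-1) = cent N := by
  refine le_antisymm (sup_le (fun _ h => h.1) fun _ h => h.1) fun g hg => ?_
  obtain ⟨g', h1⟩ := exists_comp_eq hn (B.compl₂ g)
  have h3 := hB.commute_of_comp (h1 ▸ hB.comp_right hg) hn hN
  have h4 : ∀ x y, B (g' x) y = B x (g y) := fun x y => (LinearMap.congr_fun₂ h1 x y).symm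
  have h5 : ∀ x y, B x (g' y) = B (g x) y := fun x y => by
    rw [← LinearMap.IsAlt.neg hA, h4, LinearMap.IsAlt.neg hA]
  refine Submodule.mem_sup.2 ⟨(2⁻¹ : K) • (g + g'), Submodule.smul_mem _ _ ⟨Commute.add_left hg h3,
    fun x y => by simp [h4, h5, add_comm]⟩, (2⁻¹ : K) • (g - g'), Submodule.smul_mem _ _
    ⟨Commute.sub_left hg h3, fun x y => by simp [h4, h5]⟩, ?_⟩
  rw [← smul_add, add_add_sub_cancel, ← two_smul K, inv_smul_smul₀ h2]

variable {n : ℕ} {b : Basis (Σ _ : Unit, Fin n) K V}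

theorem IsJordan.finrank_selfAdj [Fintype K] (h2 : (2 : K) ≠ 0) (h : IsJordan N (fun _ => n) b)
    (hB : Inv B N) (hA : ∀ x, B x x = 0) (hn : ∀ x, (∀ y, B x y = 0) → x = 0) {m : ℕ}
    (hm : n = 2 * m) : finrank K (selfAdj B N (-1)) = m := by
  have : FiniteDimensional K V := Module.Finite.of_basis b
  have hN : IsNilpotent N := h.exists_pow_eq_zero
  obtain ⟨u, hu⟩ := hN.isUnit_one_add
  have hu' : ∀ x y, B (u.1 x) (u.1 y) = B x y := fun x y => by rw [hu]; exact hB x y
  have hc : ∀ g, Commute g N → Commute g u.1 := fun g hg => hu ▸ (Commute.one_right g).add_right hg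
  have hi : ∀ x, u.1 ((u⁻¹).1 x) = x := fun x => by rw [← End.mul_apply, u.mul_inv]; rfl
  let δ : End K V := u.1 - (u⁻¹).1
  have hδ : ∀ g, Commute g N → Commute g δ := fun g hg =>
    (hc g hg).sub_right (hc g hg).units_inv_right
  have hδ' : ∀ x y, B (δ x) y = - B x (δ y) := fun x y => by
    have e1 := hu' x ((u⁻¹).1 y)
    have e2 := hu' ((u⁻¹).1 x) y
    rw [hi] at e1 e2
    simp [δ, e1, e2]
  let φ : ∀ ε : K, selfAdj B N ε →ₗ[K] selfAdj B N (-ε) := fun ε =>
    ((LinearMap.mulLeft K δ).domRestrict _).codRestrict _ fun g =>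
      ⟨((hδ N (Commute.refl N)).symm).mul_left g.2.1, fun x y => by
        change B (δ (g.1 x)) y = _ * B x ((δ * g.1) y)
        rw [hδ', g.2.2, ← (hδ _ g.2.1).eq, neg_mul]; rfl⟩
  have hker : ∀ ε (g : LinearMap.ker (φ ε)), N * g.1.1 = 0 := fun ε g => by
    have e1 : δ * g.1.1 = 0 := congrArg Subtype.val g.2
    have e2 : u.1 * δ = ((2 : K) • 1 + N) * N := by
      simp only [δ, mul_sub, u.mul_inv]
      rw [hu, two_smul]; noncomm_ring
    have e3 : IsUnit ((2 : K) • 1 + N) := by
      rw [add_comm]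
      exact hN.isUnit_add_right_of_commute ((IsUnit.mk0 _ h2).map (algebraMap K (End K V)))
        ((Commute.one_right N).smul_right _)
    rw [← e3.mul_right_eq_zero, ← mul_assoc, ← e2, mul_assoc, e1, mul_zero]
  let ψ : (LinearMap.ker (φ 1) × LinearMap.ker (φ (-1))) →ₗ[K] LinearMap.ker N :=
    LinearMap.codRestrict _ (LinearMap.applyₗ (bb b () 0) ∘ₗ
      (((selfAdj B N 1).subtype ∘ₗ Submodule.subtype _).coprod
        ((selfAdj B N (-1)).subtype ∘ₗ Submodule.subtype _))) fun g => by
      change (N * (g.1.1.1 + g.2.1.1)) _ = 0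
      rw [mul_add, hker, hker, add_zero]; rfl
  have e4 := LinearMap.finrank_le_finrank_of_injective (f := ψ)
    ((injective_iff_map_eq_zero _).2 fun g hg => by
      have e5 : g.1.1.1 + g.2.1.1 = 0 := h.ext_gen (g.1.1.2.1.add_left g.2.1.2.1)
        (Commute.zero_left N) fun _ => congrArg Subtype.val hg
      have e6 : g.1.1.1 = 0 := selfAdj_disjoint h2 hn g.1.1.2
        (eq_neg_of_add_eq_zero_left e5 ▸ neg_mem g.2.1.2)
      rw [e6, zero_add] at e5
      exact Prod.ext (Subtype.ext (Subtype.ext e6)) (Subtype.ext (Subtype.ext e5)))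
  have e5 := h.finrank_ker_pow 1
  have e6 := (φ 1).finrank_range_add_finrank_ker
  have e7 := (φ (-1)).finrank_range_add_finrank_ker
  have e8 := Submodule.finrank_le (LinearMap.range (φ 1))
  have e9 := Submodule.finrank_le (LinearMap.range (φ (-1)))
  have e10 := Submodule.finrank_sup_add_finrank_inf_eq (selfAdj B N 1) (selfAdj B N (-1))
  have e11 : finrank K (cent N) = n := by
    have e12 : Nat.card (cent N) = _ := h.card_commute
    rw [Module.natCard_eq_pow_finrank (K := K), Nat.card_eq_fintype_card] at e12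
    simpa using Nat.pow_right_injective Fintype.one_lt_card e12
  rw [selfAdj_sup h2 hB hA hn hN, (Submodule.eq_bot_iff (selfAdj B N 1 ⊓ selfAdj B N (-1))).2
    fun g hg => selfAdj_disjoint h2 hn hg.1 hg.2, finrank_bot, e11] at e10
  rw [pow_one] at e5
  have : ∀ ε, Free K (LinearMap.ker (φ ε)) := fun ε => Module.Free.of_divisionRing K (LinearMap.ker (φ ε))
  rw [finrank_prod, e5] at e4
  rw [show finrank K (selfAdj B N (- -1)) = finrank K (selfAdj B N 1) by rw [neg_neg]] at e9
  simp only [Finset.univ_unique, Finset.sum_const, Finset.card_singleton, one_smul] at e4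
  omega

theorem IsJordan.isUnit_add_iff (h : IsJordan N (fun _ => n) b) {g : End K V} (hg : Commute g N)
    (c : K) : IsUnit (g + c • 1) ↔ genMat b g () () + c ≠ 0 := by
  rw [h.isUnit_iff_genMat (hg.add_left ((Commute.one_left N).smul_left c)), isUnit_iff_isUnit_det,
    det_unique, isUnit_iff_ne_zero]
  simp [h.genMat_one]

theorem IsJordan.card_isometry_commute [Fintype K] (h2 : (2 : K) ≠ 0)
    (h : IsJordan N (fun _ => n) b) (hB : Inv B N) (hA : ∀ x, B x x = 0)
    (hn : ∀ x, (∀ y, B x y = 0) → x = 0) {m : ℕ} (hm : n = 2 * m) :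
    Nat.card {g : End K V // Commute g N ∧ ∀ x y, B (g x) (g y) = B x y} =
      2 * Fintype.card K ^ m := by
  have : FiniteDimensional K V := Module.Finite.of_basis b
  have : Unique {_k : Unit // n = n} := ⟨⟨⟨(), rfl⟩⟩, fun _ => rfl⟩
  have hf := ((isUnit_iff_isUnit_det _).1 (h.isUnit_fblk hB hn n)).ne_zero
  have hdet : ∀ g, ((genMat b g).toSquareBlock (fun _ => n) n).det = genMat b g () () := fun g => by
    rw [det_unique]; rfl
  have h3 : ∀ s ∈ selfAdj B N (-1), IsUnit (1 - s) := fun s hs => by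
    have e1 := congrArg det (h.fblk_comp_left hB hs.1 n)
    have e2 := congrArg det (h.fblk_comp_right hB hs.1 n)
    have e3 : (fblk (B ∘ₗ s) b n).det = - (fblk (B.compl₂ s) b n).det := by
      simp [det_unique, fblk_apply, hs.2]
    rw [RingHom.coe_id, Matrix.map_id, det_mul, hdet] at e2
    rw [det_mul, det_transpose, hdet] at e1
    have e4 : genMat b s () () = 0 :=
      (mul_eq_zero.1 (show (2 * (fblk B b n).det) * genMat b s () () = 0 by
        linear_combination e3 - e1 - e2)).resolve_left (mul_ne_zero h2 hf)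
    simpa [← sub_eq_add_neg] using ((h.isUnit_add_iff hs.1 (-1)).2 (by simp [e4])).neg
  have h4 : ∀ g, Commute g N → (∀ x y, B (g x) (g y) = B x y) →
      (¬ IsUnit (g + 1) ↔ IsUnit (-g + 1)) := fun g hg hg' => by
    have e1 := congrArg det (h.fblk_isometry hB hg n)
    rw [show (B ∘ₗ g).compl₂ g = B from LinearMap.ext₂ hg', RingHom.coe_id, Matrix.map_id, det_mul,
      det_mul, det_transpose, hdet] at e1
    have e2 : (genMat b g () () + 1) * (-genMat b g () () + 1) = 0 :=
      mul_left_cancel₀ hf (by linear_combination e1)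
    have e3 := h.isUnit_add_iff hg 1
    have e4 := h.isUnit_add_iff hg.neg_left 1
    rw [one_smul] at e3 e4
    rw [e3, e4, map_neg, not_not, Matrix.neg_apply]
    exact ⟨fun e5 e6 => h2 (by linear_combination e5 + e6), fun e5 => (mul_eq_zero.1 e2).resolve_right e5⟩
  let P : End K V → Prop := fun g => Commute g N ∧ ∀ x y, B (g x) (g y) = B x y
  have h5 : Nat.card (selfAdj B N (-1)) = Nat.card {g : {g // P g} // IsUnit (g.1 + 1)} := by
    refine Nat.card_congr (Equiv.ofBijective (fun s => ⟨⟨(2 : K) • ((h3 s s.2).unit⁻¹).1 - 1,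
      ?_, fun x y => ?_⟩, ?_⟩) ⟨fun s s' hs => ?_, ?_⟩)
    · exact ((Commute.units_inv_left (u := (h3 s s.2).unit)
        ((Commute.one_left N).sub_left s.2.1)).smul_left _).sub_left (Commute.one_left N)
    · obtain ⟨x, rfl⟩ := ((End.isUnit_iff _).1 (h3 s s.2)).2 x
      obtain ⟨y, rfl⟩ := ((End.isUnit_iff _).1 (h3 s s.2)).2 y
      have e1 : ∀ x, ((2 : K) • ((h3 s s.2).unit⁻¹).1 - 1 : End K V) ((1 - s.1) x) = x + s.1 x :=
        fun x => by
          rw [← End.mul_apply, sub_mul, smul_mul_assoc, IsUnit.val_inv_mul, one_mul, two_smul]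
          simp
      rw [e1, e1]
      simp [s.2.2 x y]
      ring
    · rw [sub_add_cancel, Algebra.smul_def]
      exact ((IsUnit.mk0 _ h2).map (algebraMap K (End K V))).mul (Units.isUnit _)
    · have e1 := congrArg (·.1.1) hs
      simp only [sub_left_inj] at e1
      have e2 := congrArg Units.val (inv_injective (Units.ext (smul_right_injective _ h2 e1)))
      exact Subtype.ext (sub_right_injective e2)
    · rintro ⟨⟨g, hg, hg'⟩, hu⟩
      have e1 : ∀ x, (1 - (2 : K) • (hu.unit⁻¹).1 : End K V) ((g + 1) x) = g x - x := fun x => by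
        rw [← End.mul_apply, sub_mul, smul_mul_assoc, IsUnit.val_inv_mul, one_mul, two_smul]
        simp
      refine ⟨⟨1 - (2 : K) • (hu.unit⁻¹).1, (Commute.one_left N).sub_left ((Commute.units_inv_left
        (u := hu.unit) (hg.add_left (Commute.one_left N))).smul_left _), fun x y => ?_⟩,
        Subtype.ext (Subtype.ext ?_)⟩
      · obtain ⟨x, rfl⟩ := ((End.isUnit_iff _).1 hu).2 x
        obtain ⟨y, rfl⟩ := ((End.isUnit_iff _).1 hu).2 y
        rw [e1, e1]
        simp [hg']
        ring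
      · dsimp only
        rw [sub_eq_iff_eq_add, ← mul_one ((2 : K) • _), smul_mul_assoc, ← mul_smul_comm,
          Units.inv_mul_eq_iff_eq_mul, IsUnit.unit_spec, sub_sub_cancel, smul_mul_assoc,
          IsUnit.val_inv_mul]
  have : Finite V := Module.finite_of_finite K
  have : Finite (End K V) := Finite.of_injective _ DFunLike.coe_injective
  classical
  rw [← Nat.card_congr (Equiv.sumCompl fun g : {g // P g} => IsUnit (g.1 + 1)), Nat.card_sum,
    Nat.card_congr (α := {g : {g // P g} // ¬ IsUnit (g.1 + 1)})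
      (β := {g : {g // P g} // IsUnit (g.1 + 1)})
      { toFun := fun g => ⟨⟨-g.1.1, g.1.2.1.neg_left, by simp [g.1.2.2]⟩, (h4 _ g.1.2.1 g.1.2.2).1 g.2⟩
        invFun := fun g => ⟨⟨-g.1.1, g.1.2.1.neg_left, by simp [g.1.2.2]⟩,
          (h4 _ g.1.2.1.neg_left (by simp [g.1.2.2])).2 (by simpa using g.2)⟩
        left_inv := fun g => by simp
        right_inv := fun g => by simp }, ← h5, Module.natCard_eq_pow_finrank (K := K),
    h.finrank_selfAdj h2 hB hA hn hm, Nat.card_eq_fintype_card, two_mul]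

end Cfsg.Agent.Lib.GL.Jordan
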