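import Mathlib
import Cfsg.Agent.Lib.GL.OrthConj

/-!
Embeddings into orthogonal groups and classes of elements of odd prime order in orthogonal groups.
-/

set_option autoImplicit false

open Module Matrix Polynomial QuadraticMap

namespace Cfsg.Agent.Lib.GL.OrthConj

open Cfsg.Agent.Lib.GL.Sim Cfsg.Agent.Lib.Forms Cfsg.Agent.Lib.GL.Isom Cfsg.Agent.Lib.GL.Herm
  Cfsg.Agent.Lib.GL.Mult Cfsg.Agent.Lib.GL.SpReal Cfsg.Agent.Lib.GL.ClassCount
  Cfsg.Agent.Lib.GL.AltConj

variable {F : Type*} [Field F] {V : Type*} [AddCommGroup V] [Module F V]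
  {ι : Type} [Fintype ι] [DecidableEq ι]

theorem exists_hom_isometryGroup {G α : Type*} [Group G] {Q : V → α} {Q' : (ι → F) → F}
    (e : V ≃ₗ[F] (ι → F)) (he : ∀ u v, Q u = Q v → Q' (e u) = Q' (e v))
    (ρ : G →* Module.End F V) (h : ∀ g v, Q (ρ g v) = Q v) :
    ∃ φ : G →* Cfsg.isometryGroup F Q', ∀ g, (φ g).1.1 = matOf e (ρ g) :=
  ⟨MonoidHom.codRestrict (((matOf e).toRingEquiv.toMonoidHom).comp ρ).toHomUnits _
    (fun g => (mem_isometryGroup_iff _ _).2 fun v => by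
      obtain ⟨v, rfl⟩ := e.surjective v
      exact (congrArg Q' (matOf_mulVec e (ρ g) v)).trans (he _ _ (h g v))), fun _ => rfl⟩

theorem exists_hom_GU {K : Type*} [Field K] [Fintype K] [Fintype F] {q : ℕ}
    (hK : Fintype.card K = q ^ 2) (hF : Fintype.card F = q) (m : ℕ) {Q' : QuadraticForm F (ι → F)}
    (hQ' : Nondeg Q') (hι : Fintype.card ι = 2 * m) (ht : tp Q' = (-q : ℤ) ^ m) :
    ∃ φ : Cfsg.GU m K q →* Cfsg.isometryGroup F Q', Function.Injective φ := by
  obtain ⟨σ, hσq, hσ⟩ := exists_isInvol hK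
  obtain ⟨φ, hφ⟩ := exists_ringHom_range_eq_fixed hσ hK hF
  let : Algebra F K := φ.toAlgebra
  have h2 : finrank F (Fin m → K) = 2 * m := by
    rw [← Module.finrank_mul_finrank F K, finrank_eq_two_of_card hK hF]; simp
  have hσφ : ∀ c : F, σ (algebraMap F K c) = algebraMap F K c := fun c => (hφ _).1 ⟨c, rfl⟩
  obtain ⟨l, hl⟩ := (Algebra.linearMap F K).exists_leftInverse_of_injective
    (LinearMap.ker_eq_bot.2 φ.injective)
  have hl1 : ∀ a : K, σ a = a → φ (l a) = a := fun a ha => by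
    obtain ⟨c, rfl⟩ := (hφ a).2 ha
    exact congrArg φ (LinearMap.congr_fun hl c)
  let B : LinearMap.BilinForm F (Fin m → K) := LinearMap.mk₂ F
    (fun u v => l (stdHerm (Fin m) σ u v)) (fun _ _ _ => by simp)
    (fun c u v => by
      rw [← map_smul, ← algebraMap_smul K c u, LinearMap.map_smulₛₗ]; simp [Algebra.smul_def])
    (fun _ _ _ => by simp)
    (fun c u v => by
      rw [← map_smul, ← algebraMap_smul K c v, LinearMap.map_smulₛₗ, hσφ]; simp [Algebra.smul_def])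
  have hH := isHerm_stdHerm hσ (Fin m)
  let Q : QuadraticForm F (Fin m → K) := LinearMap.BilinMap.toQuadraticMap B
  have hQ : ∀ v, φ (Q v) = stdHerm (Fin m) σ v v := fun v => hl1 _ (hH.herm v v).symm
  have hn : Nondeg Q := nondeg_of fun x hx => hH.nondeg x fun u => by
    by_contra h
    obtain ⟨c, hc⟩ := hσ.exists_trace_ne_zero
    have := congrArg φ (hx ((c / stdHerm (Fin m) σ u x) • u))
    rw [polar, map_sub, map_sub, hQ, hQ, hQ, map_zero] at this
    simp only [map_add, LinearMap.add_apply] at this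
    rw [hH.herm ((c / _) • u) x, LinearMap.map_smulₛₗ (stdHerm (Fin m) σ) _ u, LinearMap.smul_apply,
      RingHom.id_apply, smul_eq_mul, div_mul_cancel₀ _ h] at this
    exact hc (by linear_combination this)
  have hc : ∀ c, cntQ Q c = cnt σ m (φ c) := fun c => by
    classical
    rw [cntQ, cnt, Nat.card_eq_fintype_card, Fintype.card_subtype]
    congr 1; ext v; simp [← hQ, φ.injective.eq_iff]
  obtain ⟨e, he⟩ := isom_of_tp hn hQ' (by simp [h2]) (by simp [h2, hι]) (by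
    have h3 := mul_cnt_one hσ hK m
    have h4 := congrArg (Nat.cast : ℕ → ℤ) (cnt_zero_add hσ hK m)
    rw [Nat.cast_add, Nat.cast_mul, Nat.cast_sub (one_lt_of_card_eq_sq hK).le] at h4
    push_cast at h4
    rw [ht, tp, hc, hc, map_zero, map_one, neg_pow]
    linear_combination h4 - h3)
  let ρ : Cfsg.GU m K q →* Module.End F (Fin m → K) :=
    { toFun := fun g => (Matrix.toLin' ((g : GL (Fin m) K) : Matrix (Fin m) (Fin m) K)).restrictScalars F
      map_one' := LinearMap.ext fun v => by simp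
      map_mul' := fun a b => LinearMap.ext fun v => by simp }
  obtain ⟨ψ, hψ⟩ := exists_hom_isometryGroup (Q := Q) (Q' := Q') e (fun u v h => by rw [he, he, h]) ρ
    fun g v => φ.injective (by rw [hQ, hQ]; exact (mem_GU_iff hσq _).1 g.2 v v)
  refine ⟨ψ, fun a b h => Subtype.ext (Units.ext (Matrix.toLin'.injective (LinearMap.ext fun v => ?_)))⟩
  exact LinearMap.congr_fun ((matOf e).injective ((hψ a).symm.trans (h ▸ hψ b))) v

section Count

variable {r : ℕ}

theorem exists_quad_of_isSp {T T' : Module.End F V} (h : IsSp T) (h1 : T * T' = 1)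
    (h2 : IsUnit (T - T')) : ∃ Q : QuadraticForm F V, Nondeg Q ∧ ∀ v, Q (T v) = Q v := by
  obtain ⟨B, h3, h4, h5⟩ := h
  refine ⟨LinearMap.BilinMap.toQuadraticMap (B.compl₂ T), nondeg_of fun x hx => h4.1 x fun y => ?_,
    fun v => h5 _ _⟩
  obtain ⟨y, rfl⟩ := ((End.isUnit_iff _).1 h2).2 y
  have h6 := h5 x (T' y)
  rw [← End.mul_apply T T', h1, End.one_apply, ← LinearMap.IsAlt.neg h3 y] at h6
  have := hx y
  simp only [polar, LinearMap.BilinMap.toQuadraticMap_apply, map_add, LinearMap.add_apply,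
    LinearMap.compl₂_apply] at this
  rw [LinearMap.sub_apply, map_sub]
  linear_combination this + h6

theorem exists_fpf [Fintype F] {L : Type*} [Field L] [IsAlgClosed L] (φ : F →+* L)
    [NeZero r] (hr : Odd r) {ζ : L} (hζ : IsPrimitiveRoot ζ r) (m : ZMod r → ℕ) (hm0 : m 0 = 0)
    (hq : ∀ j, m (Fintype.card F * j) = m j) (hneg : ∀ j, m (-j) = m j) :
    ∃ (A : GL (Fin (∑ j, m j)) F) (Q : QuadraticForm F (Fin (∑ j, m j) → F)), A ^ r = 1 ∧
      mv φ ζ 1 r A.1 = m ∧ Even (∑ j, m j) ∧ Nondeg Q ∧ ∀ v, Q (A.1 *ᵥ v) = Q v := by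
  obtain ⟨A, hA, hA'⟩ := exists_mv_one (ι := Fin (∑ j, m j)) φ hζ m (by simp) hq
  have hAr := congrArg Units.val hA
  have h0 : IsUnit (A.1 - (A⁻¹).1) := by
    have h1 : IsUnit (A.1 - (1 : F) • 1) :=
      isUnit_sub_smul_of_mult φ (by simpa [mv, rt_zero, hm0] using congrFun hA' 0)
    obtain ⟨k, hk⟩ := hr
    have h2 : (X ^ 2 - 1 : F[X]) ∣ (X ^ 2) ^ (k + 1) - 1 := by
      simpa using sub_dvd_pow_sub_pow (X ^ 2 : F[X]) 1 (k + 1)
    have h3 : aeval A.1 ((X ^ 2) ^ (k + 1) - 1 : F[X]) = A - (1 : F) • 1 := by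
      rw [← pow_mul, show 2 * (k + 1) = r + 1 by omega]
      simp only [map_sub, map_pow, map_mul, aeval_X, map_one, pow_succ, one_smul]
      rw [← Units.val_pow_eq_pow_val, hA]; simp
    obtain ⟨c, hc⟩ := h2
    rw [← h3, hc, map_mul] at h1
    have h4 := isUnit_of_mul_isUnit_left h1
    have h5 : A.1 - (A⁻¹).1 = aeval A.1 (X ^ 2 - 1 : F[X]) * (A⁻¹).1 := by
      simp only [map_sub, map_mul, aeval_X, map_one, sub_mul, pow_two, one_mul,
        Units.mul_inv_cancel_right]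
    rw [h5]
    exact h4.mul (Units.isUnit _)
  have hsp : IsSp (toLin' A.1) := by
    refine isSp_of_isConj A h0 ((isConj_iff_mv_one φ hζ hAr (by
      rw [← Units.val_pow_eq_pow_val, inv_pow, hA]; simp)).2 (funext fun j => ?_))
    rw [← neg_neg j, mv_one_inv φ hζ A.mul_inv, hA', neg_neg, hneg]
  obtain ⟨Q, h1, h2⟩ := exists_quad_of_isSp hsp (T' := toLin' (A⁻¹).1)
    (by rw [End.mul_eq_comp, ← toLin'_mul, A.mul_inv, toLin'_one]; rfl)
    (by rw [← map_sub]; exact h0.map (toLinAlgEquiv' (R := F)))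
  exact ⟨A, Q, hA, hA', by simpa using hsp.even_finrank, h1, h2⟩

theorem tp_modEq_of_mv {κ : Type*} [Fintype κ] [DecidableEq κ] [Finite F] {L : Type*} [Field L]
    (φ : F →+* L) (hr : r.Prime) {ζ : L} {A : Matrix κ κ F} (hA : A ^ r = 1)
    (h0 : mv φ ζ 1 r A 0 = 0) {Q : QuadraticForm F (κ → F)} (hQ : ∀ v, Q (A *ᵥ v) = Q v) :
    tp Q ≡ 1 [ZMOD r] := by
  have h1 : IsUnit (A - (1 : F) • 1) := isUnit_sub_smul_of_mult φ (by simpa [mv, rt_zero] using h0)
  let ρ : Matrix κ κ F →* Function.End (κ → F) :=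
    ⟨⟨fun A => A.mulVec, funext one_mulVec⟩, fun A B => funext fun v => (mulVec_mulVec v A B).symm⟩
  refine tp_modEq (map_zero Q) hr (ρ A) (by rw [← map_pow, hA, map_one]) hQ
    fun v => ⟨fun hv => mulVec_injective_iff_isUnit.2 h1 (by simp [sub_mulVec, show A *ᵥ v = v from hv]), ?_⟩
  rintro rfl; exact mulVec_zero A

theorem mv_neg_of_isometry [Finite F] {L : Type*} [Field L] (φ : F →+* L) [NeZero r] {ζ : L}
    (hζ : IsPrimitiveRoot ζ r) {Q : QuadraticForm F (ι → F)} (hQ : Nondeg Q)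
    (A : Cfsg.isometryGroup F Q) (j : ZMod r) : mv φ ζ 1 r A.1.1 (-j) = mv φ ζ 1 r A.1.1 j := by
  have h1 := (isUnit_iff_isUnit_det _).2 (hQ.gram_det_ne_zero (Pi.basisFun F ι)).isUnit
  rw [gram_eq_toMatrix, LinearMap.BilinForm.toMatrix_basisFun] at h1
  obtain ⟨G, hG⟩ := h1
  have h : A.1.1ᵀ * G * A.1.1 = G := by
    rw [hG, ← LinearMap.toMatrix'_toLin' A.1.1, ← LinearMap.BilinForm.toMatrix'_comp]
    congr 1
    exact LinearMap.ext₂ (polar_map_of_isom (toLin' A.1.1) ((mem_isometryGroup_iff _ _).1 A.2))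
  rw [← mv_one_inv φ hζ A.1.mul_inv j, mv, mv, ← mult_transpose φ A.1.1]
  symm
  refine mult_of_isConj φ ⟨G, ?_⟩ _
  rw [SemiconjBy, Units.mul_inv_eq_iff_eq_mul, h]

/-- `Q₁` is similar to an orthogonal summand of `Q`. -/
def Emb (Q : (ι → F) → F) {n : ℕ} (Q₁ : (Fin n → F) → F) : Prop :=
  ∃ (k : ℕ) (e : ((Fin n → F) × (Fin k → F)) ≃ₗ[F] (ι → F)),
    ∀ u v, Q₁ u.1 = Q₁ v.1 → u.2 = v.2 → Q (e u) = Q (e v)

theorem emb_of_simil {Q : QuadraticForm F (ι → F)} {n : ℕ} {Q₁ : QuadraticForm F (Fin n → F)}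
    [FiniteDimensional F V] (Q₂ : QuadraticForm F V) (e : ((Fin n → F) × V) ≃ₗ[F] (ι → F)) (c : F)
    (he : ∀ v, Q (e v) = c * Q₁.prod Q₂ v) : Emb Q Q₁ :=
  ⟨_, ((LinearEquiv.refl F _).prodCongr (Module.finBasis F V).equivFun.symm).trans e,
    fun u v h1 h2 => by simp [he, h1, h2]⟩

theorem card_classes_orth [Fintype F] [Fact r.Prime] (hr2 : r ≠ 2) (hrF : (r : F) ≠ 0)
    {Q : QuadraticForm F (ι → F)} (hQ : Nondeg Q) (hι : 1 ≤ Fintype.card ι) (c : Prop) [Decidable c]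
    (hc : tp Q ≡ 1 [ZMOD r] → c)
    (hemb : ∀ (n : ℕ) (Q₁ : QuadraticForm F (Fin n → F)), Nondeg Q₁ → Even n → tp Q₁ ≡ 1 [ZMOD r] →
      n ≤ Fintype.card ι → (n = Fintype.card ι → c) → Emb Q Q₁)
    (s : ℕ) (u : (ZMod r)ˣ) (hu : ∀ m : ZMod r → ℕ, (∀ j, m (u * j) = m j) ↔
      (∀ j, m (Fintype.card F * j) = m j) ∧ ∀ j, m (-j) = m j) (hs : s * orderOf u = r - 1) :
    Nat.card {C : ConjClasses (Cfsg.isometryGroup F Q) //
      ∃ g, ConjClasses.mk g = C ∧ orderOf g = r} =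
      ((if c then Fintype.card ι else Fintype.card ι - 1) / orderOf u + s).choose s - 1 := by
  classical
  have hr : r.Prime := Fact.out
  let φ := algebraMap F (AlgebraicClosure F)
  obtain ⟨ζ, hζ⟩ := exists_primitiveRoot (L := AlgebraicClosure F) (r := r)
    (by rw [← map_natCast φ]; exact (map_ne_zero φ).2 hrF)
  have := finite_sum_eq_and (Fintype.card ι)
    (fun m : ZMod r → ℕ => (∀ j, m (u * j) = m j) ∧ (m 0 = 0 → c))
  have hu0 : ∀ j : ZMod r, u * j = 0 ↔ j = 0 := fun j => by simp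
  have hsum : ∀ (m : ZMod r → ℕ) a, ∑ j, Function.update m 0 a j + m 0 = ∑ j, m j + a := fun m a => by
    rw [Finset.sum_update_of_mem (Finset.mem_univ _),
      Finset.sum_eq_sum_sdiff_singleton_add (Finset.mem_univ 0) m]; ring
  have hupd : ∀ (m : ZMod r → ℕ) a, (∀ j, m (u * j) = m j) →
      ∀ j, Function.update m 0 a (u * j) = Function.update m 0 a j := fun m a h j => by
    simp only [Function.update_apply, hu0, h]
  rw [card_classes_orderOf hr (fun g : Cfsg.isometryGroup F Q => mv φ ζ 1 r g.1.1)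
    (fun m => ∑ j, m j = Fintype.card ι ∧ (∀ j, m (u * j) = m j) ∧ (m 0 = 0 → c))]
  · rw [← Nat.card_zpowers, ← card_invariant _ _ s (by rw [Nat.card_zpowers, hs, ZMod.card])]
    simp only [invariant_zpowers_iff]
    congr 1
    split_ifs with h
    · simp [h]
    · exact Nat.card_congr
        { toFun := fun m => ⟨Function.update m.1 0 (m.1 0 - 1), by
            have h1 := hsum m.1 (m.1 0 - 1)
            have h2 := mt m.2.2.2 h
            have h3 := m.2.1
            omega, hupd _ _ m.2.2.1⟩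
          invFun := fun m => ⟨Function.update m.1 0 (m.1 0 + 1), by
            have h1 := hsum m.1 (m.1 0 + 1)
            have h3 := m.2.1
            omega, hupd _ _ m.2.2, by simp⟩
          left_inv := fun m => Subtype.ext (by
            simp [Nat.sub_add_cancel (Nat.pos_of_ne_zero (mt m.2.2.2 h))])
          right_inv := fun m => Subtype.ext (by simp) }
  · intro g g' hg hg'
    rw [isConj_isometryGroup_iff hQ g g' (hr.odd_of_ne_two hr2) hrF hg]
    exact isConj_iff_mv_one φ hζ (congrArg (fun x : Cfsg.isometryGroup F Q => x.1.1) hg)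
      (congrArg (fun x : Cfsg.isometryGroup F Q => x.1.1) hg')
  · intro m
    constructor
    · rintro ⟨h1, h2, h3⟩
      obtain ⟨h4, h5⟩ := (hu _).1 (hupd m 0 h2)
      obtain ⟨A, Q₁, h6, h7, h8, h9, h10⟩ := exists_fpf φ (hr.odd_of_ne_two hr2) hζ
        (Function.update m 0 0) (by simp) h4 h5
      have h11 := hsum m 0
      obtain ⟨k, e, he⟩ := hemb _ Q₁ h9 h8 (tp_modEq_of_mv φ hr (congrArg Units.val h6)
        ((congrFun h7 0).trans (by simp)) h10) (by omega) fun h => h3 (by omega)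
      have h12 := e.finrank_eq
      simp only [finrank_prod, finrank_fintype_fun_eq_card, Fintype.card_fin] at h12
      let ρ : Cfsg.isometryGroup F Q₁ →* Module.End F ((Fin _ → F) × (Fin k → F)) :=
        { toFun := fun z => (toLin' z.1.1).prodMap (toLin' 1)
          map_one' := LinearMap.ext fun v => by simp
          map_mul' := fun a b => LinearMap.ext fun v => by simp }
      obtain ⟨ψ, hψ⟩ := exists_hom_isometryGroup (Q := fun v => (Q₁ v.1, v.2)) (Q' := Q) e
        (fun u v h => he u v (Prod.ext_iff.1 h).1 (Prod.ext_iff.1 h).2) ρ fun z v => by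
          simp [ρ, (mem_isometryGroup_iff _ _).1 z.2]
      have h13 : mv φ ζ 1 r (ψ ⟨A, (mem_isometryGroup_iff _ _).2 h10⟩).1.1 = m := by
        ext j
        rw [hψ, mv]
        change mult φ (matOf e ((toLin' A.1).prodMap (toLin' 1))) _ = _
        rw [mult_add_of_kdM φ (fun f => (kdM_matOf e _ f).trans (kdE_prodMap _ _ _)), mult_one, one_mul]
        have h14 := congrFun h7 j
        rw [mv, one_mul] at h14
        rw [h14]
        by_cases hj : j = 0
        · simp [hj, rt_zero]; omega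
        · rw [Function.update_of_ne hj,
            if_neg (fun h => hj (rt_injective hζ (h.trans rt_zero.symm))), add_zero]
      refine ⟨_, Subtype.ext (Units.ext ?_), h13⟩
      simpa using (sum_mv_iff φ hζ one_ne_zero (c := 1) (by simp) _).1 (by rw [h13, h1])
    · rintro ⟨g, hg, rfl⟩
      have hg' := congrArg (fun x : Cfsg.isometryGroup F Q => x.1.1) hg
      exact ⟨sum_mv_one φ hζ hg', (hu _).2 ⟨mv_one_frob φ hζ _, mv_neg_of_isometry φ hζ hQ g⟩,
        fun h => hc (tp_modEq_of_mv φ hr hg' h ((mem_isometryGroup_iff _ _).1 g.2))⟩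

theorem emb_odd [Finite F] (h2 : (2 : F) ≠ 0) (m n : ℕ) {Q₁ : QuadraticForm F (Fin n → F)}
    (h : Nondeg Q₁) (hn : Even n) (hm : n ≤ 2 * m + 1) : Emb (qOdd m F) Q₁ := by
  obtain ⟨k, rfl⟩ := hn
  have := Fintype.ofFinite F
  obtain ⟨c, -, e, he⟩ := (nondeg_prod h (nondeg_qOdd h2 (m - k))).simil_qOdd (m := m)
    (by simp; omega)
  exact emb_of_simil _ e c he

theorem emb_even [Fintype F] (hr : r.Prime) (hr2 : r ≠ 2) {Q : QuadraticForm F (ι → F)}
    (hQ : Nondeg Q) {m : ℕ} (hm : Fintype.card ι = 2 * m) (n : ℕ) (Q₁ : QuadraticForm F (Fin n → F))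
    (h : Nondeg Q₁) (hn : Even n) (ht : tp Q₁ ≡ 1 [ZMOD r]) (hn' : n ≤ Fintype.card ι)
    (hc : n = Fintype.card ι → tp Q ≡ 1 [ZMOD r]) : Emb Q Q₁ := by
  obtain ⟨k, rfl⟩ := hn
  obtain ⟨j, rfl⟩ : ∃ j, m = k + j := ⟨m - k, by omega⟩
  have key : ∀ {κ : Type} [Fintype κ] (Q₂ : QuadraticForm F (κ → F)), Nondeg Q₂ →
      Fintype.card κ = 2 * j → tp Q₁ * tp Q₂ = tp Q → Emb Q Q₁ := fun Q₂ h1 h3 h4 => by
    obtain ⟨e, he⟩ := isom_of_tp (nondeg_prod h h1) hQ ⟨k + j, by simp [h3]; omega⟩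
      (by simp [h3, hm]; omega) (by rw [tp_prod h (by simp) h1 (by simp [h3]), h4])
    exact emb_of_simil Q₂ e 1 (by simpa using he)
  have h1 := tp_eq_or h (m := k) (by simp [two_mul])
  have h3 := tp_eq_or hQ (m := k + j) (by simp [hm])
  by_cases h4 : tp Q₁ * (Fintype.card F : ℤ) ^ j = tp Q
  · exact key (qPlus j F) (nondeg_qPlus j) (by simp [two_mul]) (by rw [tp_qPlus, h4])
  have h5 : tp Q₁ * -(Fintype.card F : ℤ) ^ j = tp Q := by
    rcases h1 with h1 | h1 <;> rcases h3 with h3 | h3 <;> simp_all [pow_add]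
  rcases j with _ | j
  · have h6 := ht.neg.symm.trans (by simpa [← h5] using hc (by omega))
    exact absurd ((Nat.prime_dvd_prime_iff_eq hr Nat.prime_two).1
      (Int.natCast_dvd_natCast.1 (by simpa using h6.dvd))) hr2
  · obtain ⟨a, b, hab⟩ := exists_anisotropic F
    exact key (qMinus j F a b) (nondeg_qMinus j (disc_ne_zero_of_anisotropic hab))
      (by simp; ring) (by rw [tp_qMinus j hab, h5])

theorem exists_unit_data [Fact r.Prime] (hr2 : r ≠ 2) {q : ℕ} (hq : (q : ZMod r) ≠ 0) {i t : ℕ}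
    (hi : i = orderOf (q : ZMod r)) (ht : t * i = r - 1) :
    ∃ u : (ZMod r)ˣ, (∀ m : ZMod r → ℕ, (∀ j, m (u * j) = m j) ↔
      (∀ j, m (q * j) = m j) ∧ ∀ j, m (-j) = m j) ∧
      orderOf u = (if Odd i then 2 * i else i) ∧
      (if Odd i then t / 2 else t) * orderOf u = r - 1 := by
  have hr : r.Prime := Fact.out
  have : Fact (2 < r) := ⟨lt_of_le_of_ne hr.two_le hr2.symm⟩
  let x : (ZMod r)ˣ := Units.mk0 _ hq
  have hx : (x : ZMod r) = q := rfl
  have hxi : orderOf x = i := by rw [hi, ← orderOf_units]; rfl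
  have hi0 : 0 < i := hxi ▸ orderOf_pos x
  split_ifs with hodd
  · have h1 : orderOf (-1 : (ZMod r)ˣ) = 2 := by
      rw [← orderOf_units]; exact orderOf_neg_one.trans (by
        rw [if_neg]; rw [ZMod.ringChar_zmod_n]; exact hr2)
    have h2 : orderOf (-x) = 2 * i := by
      rw [← neg_one_mul, (Commute.all _ _).orderOf_mul_eq_mul_orderOf_of_coprime
        (by rw [h1, hxi]; exact (Nat.coprime_two_left).2 hodd), h1, hxi]
    have h3 : 2 ∣ t := by
      have := orderOf_dvd_card (x := -x)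
      rw [h2, ZMod.card_units, ← ht] at this
      exact Nat.dvd_of_mul_dvd_mul_right hi0 this
    have h4 : (-x) ^ i = -1 := by rw [hodd.neg_pow, ← hxi, pow_orderOf_eq_one]
    refine ⟨-x, fun f => ⟨fun h => ?_, fun ⟨h5, h6⟩ j => ?_⟩, h2,
      by rw [h2, ← mul_assoc, Nat.div_mul_cancel h3, ht]⟩
    · have h5 := (invariant_zpowers_iff _ _).2 h
      have h6 : ∀ j, f (-j) = f j := fun j => by
        simpa [h4] using h5 ((-x) ^ i) (Subgroup.npow_mem_zpowers _ _) j
      exact ⟨fun j => by rw [← h6, ← h j, ← hx]; simp, h6⟩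
    · rw [Units.val_neg, neg_mul, h6, hx, h5]
  · obtain ⟨b, hb⟩ := Nat.not_odd_iff_even.1 hodd
    have h4 : x ^ b = -1 := pow_half_eq_neg_one (by omega) (by omega)
    refine ⟨x, fun f => ⟨fun h => ⟨h, fun j => ?_⟩, fun h => h.1⟩, hxi, by rw [hxi, ht]⟩
    simpa [h4] using (invariant_zpowers_iff _ _).2 h (x ^ b) (Subgroup.npow_mem_zpowers _ _) j

theorem choose_pred {n h s : ℕ} (hn : 1 ≤ n) (hh : 1 ≤ h) (hs : 1 ≤ s) :
    ((n - 1) / h + s).choose s - 1 =
      (n / h + s).choose s - 1 - if h ∣ n then (n / h + s - 1).choose (s - 1) else 0 := by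
  obtain ⟨n, rfl⟩ : ∃ k, n = k + 1 := ⟨n - 1, by omega⟩
  obtain ⟨s, rfl⟩ : ∃ k, s = k + 1 := ⟨s - 1, by omega⟩
  rw [Nat.succ_div]
  split_ifs with h1
  · rw [show n / h + 1 + (s + 1) = (n / h + (s + 1)) + 1 by omega, Nat.choose_succ_succ']
    simp only [Nat.add_sub_cancel]
    omega
  · simp

end Count

end Cfsg.Agent.Lib.GL.OrthConj
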